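import Cfsg.Agent.Lib.GroupB.Frobenius
import Cfsg.Agent.Lib.GroupB.Coprime

/-! An abelian maximal subgroup forces derived length at most three. -/

set_option autoImplicit false
set_option linter.style.haveILetI false

namespace CfsgLib.Solvable.AbelianMaximal

open Cfsg
open scoped Pointwise

universe u

variable {G : Type u} [Group G] [Finite G]

omit [Finite G] in
theorem derived_bot_of_mul_comm {H : Type*} [Group H] (h : ∀ a b : H, a * b = b * a) : derivedSeries H 1 = ⊥ := by
  rw [derivedSeries_one, commutator_def, Subgroup.commutator_eq_bot_iff_le_centralizer]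
  exact fun a _ b _ => h b a

/-- An extension of an abelian group by one with commutative quotient. -/
theorem derived_two_le (N : Subgroup G) [N.Normal] (hN : ∀ a ∈ N, ∀ b ∈ N, a * b = b * a)
    (hq : ∀ a b : G ⧸ N, a * b = b * a) : derivedSeries G 2 = ⊥ := by
  have h1 : derivedSeries G 1 ≤ N := by
    have := map_derivedSeries_le_derivedSeries (QuotientGroup.mk' N) 1
    rw [derived_bot_of_mul_comm hq, le_bot_iff, Subgroup.map_eq_bot_iff, QuotientGroup.ker_mk'] at this
    exact this
  rw [derivedSeries_succ, eq_bot_iff]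
  refine (Subgroup.commutator_mono h1 h1).trans ?_
  rw [le_bot_iff, Subgroup.commutator_eq_bot_iff_le_centralizer]
  exact fun a ha b hb => hN b hb a ha

theorem frobenius_case (A : Subgroup G) (hA : IsCoatom A) (hF : IsFrobeniusComplement A)
    (hAc : ∀ a ∈ A, ∀ b ∈ A, a * b = b * a) : derivedSeries G 2 = ⊥ := by
  classical
  obtain ⟨K, -, hKn, hKA⟩ := CfsgLib.GroupB.Frobenius.exists_kernel_subgroup hF
  haveI := hKn
  have hKd : K ⊓ A = ⊥ := disjoint_iff.mp hKA.disjoint
  have hcop : (Nat.card A).Coprime (Nat.card K) := by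
    rw [← hKA.index_eq_card, Nat.coprime_comm]
    exact CfsgLib.GroupB.Frobenius.coprime_index hF
  have hsolA : Group.IsSolvable A :=
    Group.isSolvable_of_comm fun a b => Subtype.ext (hAc a a.2 b b.2)
  have hmin : ∀ N : Subgroup G, A ≤ Subgroup.normalizer (N : Set G) → N ≤ K → N ≠ ⊥ → N = K := by
    intro N hAN hNK hN0
    have htop : N ⊔ A = ⊤ := by
      rcases hA.le_iff.mp (le_sup_right : A ≤ N ⊔ A) with h | h
      · exact h
      · exact absurd (eq_bot_iff.mpr (hKd ▸ le_inf hNK (le_sup_left.trans h.le))) hN0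
    refine le_antisymm hNK fun x hx => ?_
    have hx' : x ∈ (↑(N ⊔ A) : Set G) := by rw [htop]; trivial
    rw [Subgroup.coe_mul_of_right_le_normalizer_left N A hAN] at hx'
    obtain ⟨n, hn, a, ha, rfl⟩ := hx'
    have : a ∈ K ⊓ A := ⟨by simpa using K.mul_mem (K.inv_mem (hNK hn)) hx, ha⟩
    rw [hKd, Subgroup.mem_bot] at this
    subst this
    simpa using hn
  have hK0 : K ≠ ⊥ := fun e => by
    subst e
    exact hA.1 (Subgroup.isComplement'_bot_left.mp hKA)
  obtain ⟨q, hq, hqd⟩ := Nat.exists_prime_and_dvd (n := Nat.card K) (fun e => hK0 (Subgroup.card_eq_one.mp e))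
  haveI : Fact q.Prime := ⟨hq⟩
  obtain ⟨⟨Q, hQ, hQA⟩, -⟩ := CfsgLib.GroupB.Coprime.invariant_sylow (G := K) (A := A)
    (by rw [Subgroup.normalizer_eq_top K]; exact le_top) hcop (Or.inr hsolA) q
  have hQK : Q = K := by
    refine hmin Q hQA hQ.1 fun e => ?_
    obtain ⟨S, hS⟩ := hQ.exists_sylow
    have := S.dvd_card_of_dvd_card hqd
    rw [Nat.card_congr ((S : Subgroup K).equivMapOfInjective _ K.subtype_injective).toEquiv, hS, e, Subgroup.card_bot] at this
    exact hq.ne_one (Nat.dvd_one.mp this)
  have hKp : IsPGroup q K := hQK ▸ hQ.isPGroup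
  haveI : Nontrivial K := (Subgroup.nontrivial_iff_ne_bot K).mpr hK0
  haveI := hKp.center_nontrivial
  set Z := (Subgroup.center K).map K.subtype with hZ
  have hZn : Z.Normal := ConjAct.normal_of_characteristic_of_normal
  have hZK : Z = K := by
    refine hmin Z (by rw [Subgroup.normalizer_eq_top Z]; exact le_top) (Subgroup.map_subtype_le _) ?_
    rw [hZ, Ne, Subgroup.map_eq_bot_iff_of_injective _ K.subtype_injective]
    exact (Subgroup.nontrivial_iff_ne_bot _).mp inferInstance
  have hKc : ∀ a ∈ K, ∀ b ∈ K, a * b = b * a := by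
    intro a ha b hb
    rw [← hZK] at ha
    obtain ⟨z, hz, rfl⟩ := ha
    exact congrArg Subtype.val (Subgroup.mem_center_iff.mp hz ⟨b, hb⟩).symm
  refine derived_two_le K hKc fun a b => ?_
  obtain ⟨a, rfl⟩ := QuotientGroup.mk'_surjective K a
  obtain ⟨b, rfl⟩ := QuotientGroup.mk'_surjective K b
  have hrep : ∀ g : G, ∃ c ∈ A, QuotientGroup.mk' K g = QuotientGroup.mk' K c := by
    intro g
    obtain ⟨⟨k, c⟩, rfl⟩ := hKA.2 g
    exact ⟨c, c.2, by rw [map_mul, show QuotientGroup.mk' K (k : G) = 1 from (QuotientGroup.eq_one_iff _).mpr k.2, one_mul]⟩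
  obtain ⟨a', ha', ea⟩ := hrep a
  obtain ⟨b', hb', eb⟩ := hrep b
  rw [ea, eb, ← map_mul, ← map_mul, hAc a' ha' b' hb']

theorem derivedSeries_three (A : Subgroup G) (hA : IsCoatom A) (hAc : ∀ a ∈ A, ∀ b ∈ A, a * b = b * a) :
    derivedSeries G 3 = ⊥ := by
  classical
  by_cases hAn : A.Normal
  · haveI := hAn
    have h2 : derivedSeries G 2 = ⊥ := by
      refine derived_two_le A hAc ?_
      have hcyc : IsCyclic (G ⧸ A) := by
        haveI : Nontrivial (G ⧸ A) := QuotientGroup.nontrivial_iff.mpr hA.1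
        obtain ⟨x, hx⟩ := exists_ne (1 : G ⧸ A)
        have htop : Subgroup.zpowers x = ⊤ := by
          obtain ⟨y, rfl⟩ := QuotientGroup.mk'_surjective A x
          have h4 : A ⊔ Subgroup.zpowers y = ⊤ := by
            rcases hA.le_iff.mp (le_sup_left : A ≤ A ⊔ Subgroup.zpowers y) with h | h
            · exact h
            · exact absurd ((QuotientGroup.eq_one_iff y).mpr (h.le (Subgroup.mem_sup_right (Subgroup.mem_zpowers y)))) hx
          have := congrArg (Subgroup.map (QuotientGroup.mk' A)) h4
          rwa [Subgroup.map_sup, MonoidHom.map_zpowers, (Subgroup.map_eq_bot_iff A).mpr (QuotientGroup.ker_mk' A).ge,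
            bot_sup_eq, Subgroup.map_top_of_surjective _ (QuotientGroup.mk'_surjective A)] at this
        exact isCyclic_iff_exists_zpowers_eq_top.mpr ⟨x, htop⟩
      intro a b
      letI : CommGroup (G ⧸ A) := IsCyclic.commGroup
      exact mul_comm a b
    rw [derivedSeries_succ, h2, Subgroup.commutator_bot_left]
  · have hN : Subgroup.normalizer (A : Set G) = A := by
      rcases hA.le_iff.mp (Subgroup.le_normalizer : A ≤ Subgroup.normalizer (A : Set G)) with h | h
      · exact absurd (Subgroup.normalizer_eq_top_iff.mp h) hAn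
      · exact h
    set Z := Subgroup.center G with hZ
    have hZA : Z ≤ A := by
      refine le_trans ?_ hN.le
      intro z hz
      refine Subgroup.mem_normalizer_fintype fun x hx => ?_
      show z * x * z⁻¹ ∈ A
      rwa [← Subgroup.mem_center_iff.mp hz x, mul_inv_cancel_right]
    have hint : ∀ g : G, g ∉ A → ∀ x ∈ A, g⁻¹ * x * g ∈ A → x ∈ Z := by
      intro g hg x hx hgx
      rw [hZ, Subgroup.mem_center_iff]
      have htop : A ⊔ (A.map (MulAut.conj g).toMonoidHom) = ⊤ := by
        rcases hA.le_iff.mp (le_sup_left : A ≤ A ⊔ A.map (MulAut.conj g).toMonoidHom) with h | h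
        · exact h
        · refine absurd (hN ▸ Subgroup.mem_normalizer_fintype fun y hy => ?_) hg
          exact h.le (Subgroup.mem_sup_right ⟨y, hy, rfl⟩)
      intro y
      have hy : y ∈ Subgroup.centralizer ({x} : Set G) := by
        refine (htop.ge.trans (sup_le (fun a ha => Subgroup.mem_centralizer_singleton_iff.mpr (hAc a ha x hx)) ?_)) (Subgroup.mem_top y)
        rintro _ ⟨a, ha, rfl⟩
        refine Subgroup.mem_centralizer_singleton_iff.mpr ?_
        show g * a * g⁻¹ * x = x * (g * a * g⁻¹)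
        calc g * a * g⁻¹ * x = g * (a * (g⁻¹ * x * g)) * g⁻¹ := by group
          _ = g * ((g⁻¹ * x * g) * a) * g⁻¹ := by rw [hAc a ha _ hgx]
          _ = _ := by group
      exact Subgroup.mem_centralizer_singleton_iff.mp hy
    set π := QuotientGroup.mk' Z with hπd
    have hπ := QuotientGroup.mk'_surjective Z
    have hker : π.ker ≤ A := by rwa [QuotientGroup.ker_mk']
    have hmem : ∀ x : G, π x ∈ A.map π → x ∈ A := fun x hx => (Subgroup.comap_map_eq_self hker).le hx
    have hcoat : IsCoatom (A.map π) := by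
      refine ⟨fun h => hA.1 ?_, fun b hb => ?_⟩
      · rw [← Subgroup.comap_map_eq_self hker, h, Subgroup.comap_top]
      · refine Subgroup.comap_injective hπ ?_
        rw [Subgroup.comap_top]
        refine hA.2 _ ?_
        rw [← Subgroup.comap_map_eq_self hker]
        exact (Subgroup.comap_lt_comap_of_surjective hπ).mpr hb
    have hF : IsFrobeniusComplement (A.map π) := by
      refine ⟨fun h => hAn ?_, hcoat.1, fun g hg => ?_⟩
      · rw [Subgroup.map_eq_bot_iff, QuotientGroup.ker_mk'] at h
        rw [le_antisymm h hZA]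
        infer_instance
      · obtain ⟨g, rfl⟩ := hπ g
        rw [eq_bot_iff]
        rintro y ⟨⟨x, hx, rfl⟩, hy⟩
        replace hy : π x ∈ MulAut.conj (π g) • A.map π := hy
        rw [CfsgLib.GroupB.Frobenius.mem_conj_smul_iff, ← map_inv, ← map_mul, ← map_mul] at hy
        rw [Subgroup.mem_bot]
        refine (QuotientGroup.eq_one_iff x).mpr (hint g (fun h => hg ⟨g, h, rfl⟩) x hx (hmem _ hy))
    have hc : ∀ a ∈ A.map π, ∀ b ∈ A.map π, a * b = b * a := by
      rintro _ ⟨a, ha, rfl⟩ _ ⟨b, hb, rfl⟩
      rw [← map_mul, ← map_mul, hAc a ha b hb]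
    have h2 : derivedSeries G 2 ≤ Z := by
      have := map_derivedSeries_le_derivedSeries π 2
      rwa [frobenius_case (A.map π) hcoat hF hc, le_bot_iff, Subgroup.map_eq_bot_iff, QuotientGroup.ker_mk'] at this
    rw [derivedSeries_succ, eq_bot_iff]
    refine (Subgroup.commutator_mono h2 h2).trans ?_
    rw [le_bot_iff, Subgroup.commutator_eq_bot_iff_le_centralizer]
    exact fun a ha b _ => Subgroup.mem_center_iff.mp ha b

end CfsgLib.Solvable.AbelianMaximal
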