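import Cfsg.Agent.Lib.Solvable.HallSystem
import Cfsg.Agent.Lib.PLocal.SolvablePrimitive
import Cfsg.Agent.Lib.GroupB.Coprime

/-! Carter subgroups and their relation to system normalizers. -/

set_option autoImplicit false
set_option linter.style.haveILetI false

namespace CfsgLib.Solvable.Carter

open Cfsg
open CfsgLib.Solvable.HallSystem
open scoped Pointwise commutatorElement

universe u

variable {G : Type u} [Group G] [Finite G]

theorem compl_of {p : ℕ} (hp : p.Prime) {A : Subgroup G} (hA : ¬ p ∣ Nat.card A) {k : ℕ} (h : A.index ∣ p ^ k) :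
    Compl p A := by
  obtain ⟨j, -, hj⟩ := (Nat.dvd_prime_pow hp).mp h
  show A.index = _
  rw [← A.card_mul_index, hj, Nat.factorization_mul Nat.card_pos.ne' (pow_ne_zero _ hp.ne_zero), Finsupp.add_apply,
    Nat.factorization_eq_zero_of_not_dvd hA, hp.factorization_pow, Finsupp.single_eq_same, zero_add]

theorem exists_compl (G : Type u) [Group G] [Finite G] [Group.IsSolvable G] (p : ℕ) (hp : p.Prime) :
    ∃ L : Subgroup G, Compl p L := by
  have hcop : ((Nat.card G) / p ^ (Nat.card G).factorization p).Coprime (p ^ (Nat.card G).factorization p) :=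
    (Nat.coprime_ordCompl hp Nat.card_pos.ne').symm.pow_right _
  have hn : Nat.card G = (Nat.card G) / p ^ (Nat.card G).factorization p * p ^ (Nat.card G).factorization p :=
    (Nat.div_mul_cancel (Nat.ordProj_dvd _ _)).symm
  obtain ⟨L, hL⟩ := HallBasic.exists_card hn hcop
  refine ⟨L, Nat.eq_of_mul_eq_mul_left (Nat.card_pos (α := L)) ?_⟩
  rw [L.card_mul_index, hL, ← hn]

theorem nilpotent_of_injective {A B : Type*} [Group A] [Group B] [Group.IsNilpotent B] (f : A →* B)
    (hf : Function.Injective f) : Group.IsNilpotent A :=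
  Group.nilpotent_of_surjective (MonoidHom.ofInjective hf).symm.toMonoidHom (MonoidHom.ofInjective hf).symm.surjective

theorem index_of_sup_top {X F : Subgroup G} [F.Normal] (h : X ⊔ F = ⊤) : X.index = X.relIndex F := by
  have e1 := Subgroup.relIndex_mul_index (inf_le_left : X ⊓ F ≤ X)
  have e2 := Subgroup.relIndex_mul_index (inf_le_right : X ⊓ F ≤ F)
  rw [Subgroup.inf_relIndex_left] at e1
  rw [Subgroup.inf_relIndex_right] at e2
  have h3 : F.relIndex X = F.index := by
    rw [← CfsgLib.GroupB.Coprime.relIndex_sup_of_le_normalizer (N := F) (K := X)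
      (by rw [Subgroup.normalizer_eq_top F]; exact le_top), sup_comm, h, Subgroup.relIndex_top_right]
  rw [h3, ← e2, mul_comm (X.relIndex F)] at e1
  exact Nat.eq_of_mul_eq_mul_left (Nat.pos_of_ne_zero Subgroup.index_ne_zero_of_finite) e1

theorem normalizer_self {p : ℕ} (hp : p.Prime) {L : Subgroup G} (hL : Compl p L) :
    Subgroup.normalizer ((Subgroup.normalizer (L : Set G) : Subgroup G) : Set G) = Subgroup.normalizer (L : Set G) := by
  refine le_antisymm (fun x hx => ?_) Subgroup.le_normalizer
  refine Subgroup.mem_normalizer_fintype fun y hy => ?_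
  show x * y * x⁻¹ ∈ L
  refine mem_of_normalizes hp hL ((Subgroup.mem_normalizer_iff.mp hx y).mp (Subgroup.le_normalizer hy)) fun h => ?_
  rw [show x * y * x⁻¹ = MulAut.conj x y from rfl, MulEquiv.orderOf_eq] at h
  exact not_dvd_card hp hL (h.trans (Subgroup.orderOf_dvd_natCard L hy))

theorem eq_top_of_normalizer_self [Group.IsNilpotent G] {H : Subgroup G} (h : Subgroup.normalizer (H : Set G) = H) :
    H = ⊤ := by
  by_contra hne
  exact (Group.normalizerCondition_of_isNilpotent H (lt_top_iff_ne_top.mpr hne)).ne h.symm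

theorem normal_of_nilpotent [Group.IsNilpotent G] {p : ℕ} (hp : p.Prime) {L : Subgroup G} (hL : Compl p L) : L.Normal :=
  Subgroup.normalizer_eq_top_iff.mp (eq_top_of_normalizer_self (normalizer_self hp hL))

theorem le_compl {p : ℕ} (hp : p.Prime) {K N : Subgroup G} [N.Normal] (hK : Compl p K) (hN : ¬ p ∣ Nat.card N) : N ≤ K := by
  rw [← Subgroup.relIndex_eq_one]
  refine Nat.eq_one_of_dvd_coprimes ?_ (Subgroup.relIndex_dvd_card K N) ((relIndex_dvd K N).trans (dvd_of_eq hK))
  exact ((hp.coprime_iff_not_dvd.mpr hN).symm).pow_right _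

theorem conj_within {X H₁ H₂ : Subgroup G} [Group.IsSolvable G] {p : ℕ} (hp : p.Prime) (h1 : Compl p H₁)
    (h2 : Compl p H₂) (hX1 : H₁ ≤ X) (hX2 : H₂ ≤ X) : ∃ x ∈ X, MulAut.conj x • H₁ = H₂ := by
  obtain ⟨c1, c2⟩ := card_eq hp h1
  obtain ⟨d1, -⟩ := card_eq hp h2
  have hcd : Nat.card H₂ = Nat.card H₁ := Nat.eq_of_mul_eq_mul_right (pow_pos hp.pos _) (d1.symm.trans c1)
  obtain ⟨j, -, hj⟩ : ∃ j ≤ (Nat.card G).factorization p, (H₁.subgroupOf X).index = p ^ j := by
    refine (Nat.dvd_prime_pow hp).mp ?_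
    rw [← h1]
    exact Dvd.intro _ (Subgroup.relIndex_mul_index hX1)
  have hX' : Nat.card X = Nat.card H₁ * p ^ j := by
    rw [← (H₁.subgroupOf X).card_mul_index, hj, Nat.card_congr (Subgroup.subgroupOfEquivOfLe hX1).toEquiv]
  obtain ⟨x, hx⟩ := HallBasic.exists_conj (G := X) hX'
    (((hp.coprime_iff_not_dvd.mpr (not_dvd_card hp h1)).symm).pow_right j) (H := H₁.subgroupOf X) (K := H₂.subgroupOf X)
    (by rw [Nat.card_congr (Subgroup.subgroupOfEquivOfLe hX1).toEquiv])
    (by rw [Nat.card_congr (Subgroup.subgroupOfEquivOfLe hX2).toEquiv, hcd])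
  refine ⟨x, x.2, ?_⟩
  have h5 := congrArg (Subgroup.map X.subtype) hx
  rw [HallBasic.smul_eq_map, Subgroup.map_map, Subgroup.map_subgroupOf_eq_of_le hX2] at h5
  rw [HallBasic.smul_eq_map, ← h5]
  conv_lhs => rw [← Subgroup.map_subgroupOf_eq_of_le hX1, Subgroup.map_map]
  rfl

/-- The basic case: nilpotent modulo a normal `p`-subgroup. -/
theorem key [Group.IsSolvable G] {p : ℕ} [hp : Fact p.Prime] (N : Subgroup G) [hNn : N.Normal] (hNp : IsPGroup p N)
    [Group.IsNilpotent (G ⧸ N)] {L : Subgroup G} (hL : Compl p L) :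
    IsCarterSubgroup (Subgroup.normalizer (L : Set G)) ∧ Subgroup.normalizer (L : Set G) ⊔ N = ⊤ := by
  classical
  set M := Subgroup.normalizer (L : Set G) with hM
  set π := QuotientGroup.mk' N with hπd
  have hπ := QuotientGroup.mk'_surjective N
  have hLb : Compl p (L.map π) := map_compl π hπ hp.out hL
  haveI hLbn : (L.map π).Normal := normal_of_nilpotent hp.out hLb
  have hcomap : (L.map π).comap π = L ⊔ N := by rw [Subgroup.comap_map_eq, QuotientGroup.ker_mk']
  refine ⟨⟨?_, normalizer_self hp.out hL⟩, ?_⟩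
  · have hLN : ∀ x ∈ L, x ∈ N → x = 1 := fun x hx hxN => by
      obtain ⟨n, hn⟩ := hNp.exists_card_eq
      refine orderOf_eq_one_iff.mp (Nat.eq_one_of_dvd_coprimes ?_ (Subgroup.orderOf_dvd_natCard L hx)
        (hn ▸ Subgroup.orderOf_dvd_natCard N hxN))
      exact ((hp.out.coprime_iff_not_dvd.mpr (not_dvd_card hp.out hL)).symm).pow_right n
    have hLnil : Group.IsNilpotent L := by
      let f : L →* G ⧸ N := π.comp L.subtype
      have hf : Function.Injective f := (injective_iff_map_eq_one f).mpr fun x hx =>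
        Subtype.ext (hLN x x.2 ((QuotientGroup.eq_one_iff _).mp hx))
      exact nilpotent_of_injective f hf
    refine ((Group.isNilpotent_of_finite_tfae (G := M)).out 0 3 rfl rfl).mpr fun r hr S => ?_
    by_cases hrp : r = p
    · subst hrp
      have hcomm : ∀ y ∈ (S : Subgroup M), ∀ l ∈ L, (y : G) * l = l * (y : G) := by
        intro y hy l hl
        have hyM : (y : G) ∈ M := y.2
        have h1 : (y : G) * l * (y : G)⁻¹ * l⁻¹ ∈ L :=
          L.mul_mem ((Subgroup.mem_normalizer_iff.mp hyM l).mp hl) (L.inv_mem hl)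
        have h2 : (y : G) * l * (y : G)⁻¹ * l⁻¹ ∈ N := by
          rw [← QuotientGroup.eq_one_iff]
          have hyp : IsPGroup r (Subgroup.zpowers (π (y : G))) := by
            obtain ⟨n, hn⟩ := IsPGroup.iff_orderOf.mp S.2 ⟨y, hy⟩
            rw [Subgroup.orderOf_mk, ← Subgroup.orderOf_coe] at hn
            obtain ⟨j, -, hj⟩ := (Nat.dvd_prime_pow hp.out).mp (hn ▸ orderOf_map_dvd π (y : G))
            exact IsPGroup.of_card (by rw [Nat.card_zpowers, hj])
          obtain ⟨T, hT⟩ := hyp.exists_le_sylow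
          haveI hTn : (T : Subgroup (G ⧸ N)).Normal := inferInstance
          have hcT : π (y : G) * π l * (π (y : G))⁻¹ * (π l)⁻¹ ∈ (T : Subgroup (G ⧸ N)) ⊓ L.map π := by
            refine ⟨?_, ?_⟩
            · rw [mul_assoc, mul_assoc, ← mul_assoc (π l)]
              exact Subgroup.mul_mem _ (hT (Subgroup.mem_zpowers _))
                (hTn.conj_mem _ (Subgroup.inv_mem _ (hT (Subgroup.mem_zpowers _))) _)
            · exact Subgroup.mul_mem _ (hLbn.conj_mem _ (Subgroup.mem_map_of_mem π hl) _)
                (Subgroup.inv_mem _ (Subgroup.mem_map_of_mem π hl))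
          obtain ⟨n, hn⟩ := T.2.exists_card_eq
          rw [disjoint_iff.mp (Subgroup.disjoint_of_coprime_natCard (K := L.map π) (H := (T : Subgroup (G ⧸ N))) (by
            rw [hn]; exact (hp.out.coprime_iff_not_dvd.mpr (not_dvd_card hp.out hLb)).pow_left n)),
            Subgroup.mem_bot, ← map_inv, ← map_inv, ← map_mul, ← map_mul, ← map_mul] at hcT
          exact hcT
        have h3 := hLN _ h1 h2
        rwa [mul_inv_eq_one, mul_inv_eq_iff_eq_mul] at h3
      -- `M` is generated by `L` and `S`
      rw [← Subgroup.normalizer_eq_top_iff, eq_top_iff]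
      have htop : L.subgroupOf M ⊔ (S : Subgroup M) = ⊤ := by
        rw [← Subgroup.index_eq_one]
        refine Nat.eq_one_of_dvd_coprimes ?_ (Subgroup.index_dvd_of_le le_sup_left) (Subgroup.index_dvd_of_le le_sup_right)
        show (L.relIndex M).Coprime (S : Subgroup M).index
        refine Nat.Coprime.coprime_dvd_left ((Dvd.intro _ (Subgroup.relIndex_mul_index Subgroup.le_normalizer)).trans (dvd_of_eq hL)) ?_
        exact (hp.out.coprime_iff_not_dvd.mpr S.not_dvd_index).pow_left _
      rw [← htop]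
      refine sup_le (fun l hl => Subgroup.mem_normalizer_fintype fun y hy => ?_) Subgroup.le_normalizer
      show l * y * l⁻¹ ∈ (S : Subgroup M)
      have : l * y = y * l := Subtype.ext (hcomm y hy l hl).symm
      rwa [this, mul_inv_cancel_right]
    · -- an `r`-element of `M` lies in `L`
      have hr' : r.Prime := hr.out
      have hSL : (S : Subgroup M) ≤ L.subgroupOf M := fun y hy => by
        refine mem_of_normalizes hp.out hL y.2 fun h => ?_
        obtain ⟨j, hj⟩ := IsPGroup.iff_orderOf.mp S.2 ⟨y, hy⟩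
        rw [Subgroup.orderOf_mk, ← Subgroup.orderOf_coe] at hj
        rw [Subgroup.subtype_apply, hj] at h
        exact hrp ((Nat.prime_dvd_prime_iff_eq hp.out hr').mp (hp.out.dvd_of_dvd_pow h)).symm
      haveI hLn : (L.subgroupOf M).Normal := Subgroup.normal_in_normalizer
      haveI : Group.IsNilpotent (L.subgroupOf M) :=
        nilpotent_of_injective (Subgroup.subgroupOfEquivOfLe (Subgroup.le_normalizer : L ≤ M)).toMonoidHom
          (Subgroup.subgroupOfEquivOfLe (Subgroup.le_normalizer : L ≤ M)).injective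
      let T := S.subtype hSL
      haveI hTn : (T : Subgroup (L.subgroupOf M)).Normal := inferInstance
      haveI : (T : Subgroup (L.subgroupOf M)).Characteristic := T.characteristic_of_normal hTn
      have : (S : Subgroup M) = (T : Subgroup (L.subgroupOf M)).map (L.subgroupOf M).subtype := by
        rw [Sylow.coe_subtype, Subgroup.map_subgroupOf_eq_of_le hSL]
      rw [this]
      exact ConjAct.normal_of_characteristic_of_normal
  · refine (Subgroup.eq_top_iff' _).mpr fun g => ?_
    set X := L ⊔ N with hX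
    haveI : X.Normal := hcomap ▸ hLbn.comap π
    obtain ⟨x, hx, he⟩ := conj_within (X := X) hp.out (compl_conj g hL) hL (by
      rw [← Subgroup.Normal.conjAct ‹X.Normal› (ConjAct.toConjAct g)]
      exact Subgroup.pointwise_smul_le_pointwise_smul_iff.mpr le_sup_left) le_sup_left
    rw [← mul_smul, ← map_mul, HallBasic.smul_eq_map] at he
    have hm : x * g ∈ M := Subgroup.mem_normalizer_iff_map_conj_eq.mpr he
    rw [show g = x⁻¹ * (x * g) by group]
    exact Subgroup.mul_mem _ ((sup_le_sup_right Subgroup.le_normalizer N) (X.inv_mem hx)) (Subgroup.mem_sup_left hm)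

theorem eq_of_nilpotent {C M : Subgroup G} (hC : Subgroup.normalizer (C : Set G) = C) [Group.IsNilpotent M]
    (hCM : C ≤ M) : C = M := by
  refine le_antisymm hCM fun x hx => ?_
  have htop : C.subgroupOf M = ⊤ := eq_top_of_normalizer_self (le_antisymm (fun y hy => by
    show (y : G) ∈ C
    rw [← hC]
    refine Subgroup.mem_normalizer_fintype fun z hz => ?_
    have h2 := (Subgroup.mem_normalizer_iff.mp hy ⟨z, hCM hz⟩).mp hz
    exact h2) Subgroup.le_normalizer)
  exact htop.ge (Subgroup.mem_top (⟨x, hx⟩ : M))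

theorem normalizer_subgroupOf {C X : Subgroup G} (hCX : C ≤ X) (hC : Subgroup.normalizer (C : Set G) = C) :
    Subgroup.normalizer ((C.subgroupOf X : Subgroup X) : Set X) = C.subgroupOf X := by
  refine le_antisymm (fun y hy => ?_) Subgroup.le_normalizer
  show (y : G) ∈ C
  rw [← hC]
  refine Subgroup.mem_normalizer_fintype fun z hz => ?_
  exact (Subgroup.mem_normalizer_iff.mp hy ⟨z, hCX hz⟩).mp hz

theorem subgroupOf_carter {C X : Subgroup G} (hCX : C ≤ X) (hC : IsCarterSubgroup C) :
    IsCarterSubgroup (C.subgroupOf X) :=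
  ⟨haveI := hC.1; nilpotent_of_injective (Subgroup.subgroupOfEquivOfLe hCX).toMonoidHom
    (Subgroup.subgroupOfEquivOfLe hCX).injective, normalizer_subgroupOf hCX hC.2⟩

theorem conj_carter {C : Subgroup G} (g : G) (hC : IsCarterSubgroup C) : IsCarterSubgroup (MulAut.conj g • C) := by
  rw [HallBasic.smul_eq_map]
  refine ⟨?_, ?_⟩
  · haveI := hC.1
    exact Group.nilpotent_of_surjective _ ((MulAut.conj g).toMonoidHom.subgroupMap_surjective C)
  · conv_rhs => rw [← hC.2, Subgroup.map_equiv_normalizer_eq C (MulAut.conj g)]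

/-- Images of Carter subgroups, given conjugacy in the product. -/
theorem image_carter {C N : Subgroup G} [N.Normal] (hC : IsCarterSubgroup C)
    (hconj : ∀ g : G, MulAut.conj g • C ≤ C ⊔ N → ∃ x ∈ C ⊔ N, MulAut.conj x • (MulAut.conj g • C) = C) :
    IsCarterSubgroup (C.map (QuotientGroup.mk' N)) := by
  set π := QuotientGroup.mk' N
  have hcm : (C.map π).comap π = C ⊔ N := by rw [Subgroup.comap_map_eq, QuotientGroup.ker_mk']
  refine ⟨haveI := hC.1; Group.nilpotent_of_surjective _ (π.subgroupMap_surjective C), le_antisymm (fun y hy => ?_) Subgroup.le_normalizer⟩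
  obtain ⟨g, rfl⟩ := QuotientGroup.mk'_surjective N y
  obtain ⟨x, hx, he⟩ := hconj g (by
    rintro _ ⟨c, hc, rfl⟩
    rw [← hcm]
    show π (g * c * g⁻¹) ∈ C.map π
    rw [map_mul, map_mul, map_inv]
    exact (Subgroup.mem_normalizer_iff.mp hy _).mp (Subgroup.mem_map_of_mem π hc))
  rw [← mul_smul, ← map_mul, HallBasic.smul_eq_map] at he
  replace he : x * g ∈ C := hC.2 ▸ Subgroup.mem_normalizer_iff_map_conj_eq.mpr he
  show g ∈ (C.map π).comap π
  rw [hcm, show g = x⁻¹ * (x * g) by group]
  exact Subgroup.mul_mem _ (Subgroup.inv_mem _ hx) (Subgroup.mem_sup_left he)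

theorem exists_minNormal (G : Type u) [Group G] [Finite G] [Group.IsSolvable G] [Nontrivial G] :
    ∃ N : Subgroup G, N.Normal ∧ N ≠ ⊥ ∧ ∃ p : ℕ, p.Prime ∧ IsPGroup p N := by
  obtain ⟨N, hN⟩ := (Set.toFinite {R : Subgroup G | R.Normal ∧ R ≠ ⊥}).exists_minimal ⟨⊤, inferInstance, top_ne_bot⟩
  obtain ⟨hNn, hN0⟩ := hN.prop
  haveI := hNn
  obtain ⟨-, p, d, hp, -, hc⟩ := CfsgLib.PLocal.minNormal_solvable N hN0 fun M hM hMN =>
    or_iff_not_imp_left.mpr fun hM0 => le_antisymm hMN (hN.le_of_le ⟨hM, hM0⟩ hMN)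
  exact ⟨N, hNn, hN0, p, hp, IsPGroup.of_card hc⟩

theorem card_quotient_lt {N : Subgroup G} [N.Normal] (hN : N ≠ ⊥) : Nat.card (G ⧸ N) < Nat.card G := by
  rw [N.card_eq_card_quotient_mul_card_subgroup]
  refine lt_mul_of_one_lt_right Nat.card_pos ?_
  have := mt Subgroup.card_eq_one.mp hN
  have := Nat.card_pos (α := N)
  omega

theorem nilpotent_of_top {H : Type*} [Group H] {C : Subgroup H} (h : Group.IsNilpotent C) (hC : C = ⊤) : Group.IsNilpotent H :=
  haveI := h
  Group.nilpotent_of_surjective C.subtype fun y => ⟨⟨y, hC ▸ Subgroup.mem_top y⟩, rfl⟩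

/-- Carter subgroups are conjugate. -/
theorem conjugate {G : Type u} [Group G] [Finite G] [Group.IsSolvable G] (C D : Subgroup G) (hC : IsCarterSubgroup C)
    (hD : IsCarterSubgroup D) : ∃ g : G, MulAut.conj g • C = D := by
  classical
  induction hn : Nat.card G using Nat.strong_induction_on generalizing G with
  | _ n ih =>
    subst hn
    by_cases hnt : Nontrivial G
    swap
    · rw [not_nontrivial_iff_subsingleton] at hnt
      exact ⟨1, Subsingleton.elim _ _⟩
    obtain ⟨N, hNn, hN0, p, hp, hNp⟩ := exists_minNormal G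
    haveI := hNn
    haveI := Fact.mk hp
    set π := QuotientGroup.mk' N with hπd
    have hπ := QuotientGroup.mk'_surjective N
    haveI : Group.IsSolvable (G ⧸ N) := Group.isSolvable_of_surjective hπ
    have hin : ∀ (X C' D' : Subgroup G), X ≠ ⊤ → C' ≤ X → D' ≤ X → IsCarterSubgroup C' → IsCarterSubgroup D' →
        ∃ x ∈ X, MulAut.conj x • C' = D' := by
      intro X C' D' hX h1 h2 h3 h4
      have hlt : Nat.card X < Nat.card G := lt_of_le_of_ne (Subgroup.card_le_card_group _)
        (fun h => hX (Subgroup.eq_top_of_card_eq _ h))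
      obtain ⟨x, hx⟩ := ih _ hlt (G := X) (C'.subgroupOf X) (D'.subgroupOf X) (subgroupOf_carter h1 h3)
        (subgroupOf_carter h2 h4) rfl
      refine ⟨x, x.2, ?_⟩
      have h5 := congrArg (Subgroup.map X.subtype) hx
      rw [HallBasic.smul_eq_map, Subgroup.map_map, Subgroup.map_subgroupOf_eq_of_le h2] at h5
      rw [HallBasic.smul_eq_map, ← h5]
      conv_lhs => rw [← Subgroup.map_subgroupOf_eq_of_le h1, Subgroup.map_map]
      rfl
    have himg : ∀ C : Subgroup G, IsCarterSubgroup C → IsCarterSubgroup (C.map π) := by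
      intro C hC
      by_cases ht : C ⊔ N = ⊤
      · have hmt : C.map π = ⊤ := by
          have := congrArg (Subgroup.map π) ht
          rwa [Subgroup.map_sup, Subgroup.map_top_of_surjective _ hπ, (Subgroup.map_eq_bot_iff N).mpr (QuotientGroup.ker_mk' N).ge, sup_bot_eq] at this
        refine ⟨haveI := hC.1; Group.nilpotent_of_surjective _ (π.subgroupMap_surjective C), ?_⟩
        rw [hmt]
        exact top_le_iff.mp Subgroup.le_normalizer
      · exact image_carter hC fun g hg => hin _ _ _ ht hg le_sup_left (conj_carter g hC) hC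
    obtain ⟨gb, hgb⟩ := ih _ (card_quotient_lt hN0) (G := G ⧸ N) (C.map π) (D.map π) (himg C hC) (himg D hD) rfl
    obtain ⟨g, rfl⟩ := hπ gb
    have hgb' : (MulAut.conj g • C).map π = D.map π := by
      rw [← hgb, HallBasic.smul_eq_map, HallBasic.smul_eq_map, Subgroup.map_map, Subgroup.map_map]
      congr 1
    have hCg := conj_carter g hC
    suffices ∃ x : G, MulAut.conj x • (MulAut.conj g • C) = D by
      obtain ⟨x, hx⟩ := this
      exact ⟨x * g, by rw [map_mul, mul_smul, hx]⟩
    set C' := MulAut.conj g • C with hC'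
    have hsup : C' ⊔ N = D ⊔ N := by
      have := congrArg (Subgroup.comap π) hgb'
      rwa [Subgroup.comap_map_eq, Subgroup.comap_map_eq, QuotientGroup.ker_mk'] at this
    by_cases ht : C' ⊔ N = ⊤
    · -- nilpotent quotient
      have hmt : C'.map π = ⊤ := by
        have := congrArg (Subgroup.map π) ht
        rwa [Subgroup.map_sup, Subgroup.map_top_of_surjective _ hπ, (Subgroup.map_eq_bot_iff N).mpr (QuotientGroup.ker_mk' N).ge, sup_bot_eq] at this
      haveI : Group.IsNilpotent (G ⧸ N) := nilpotent_of_top (himg C' hCg).1 hmt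
      have hform : ∀ E : Subgroup G, IsCarterSubgroup E → E ⊔ N = ⊤ → ∃ L : Subgroup G, Compl p L ∧ E = Subgroup.normalizer (L : Set G) := by
        intro E hE hEt
        haveI := hE.1
        haveI : Group.IsSolvable E := inferInstance
        obtain ⟨L₀, hL₀⟩ := exists_compl E p hp
        haveI hL₀n : L₀.Normal := normal_of_nilpotent hp hL₀
        set L := L₀.map E.subtype with hL
        have hLc : Compl p L := by
          obtain ⟨k, hk⟩ := hNp.exists_card_eq
          refine compl_of hp (k := (Nat.card E).factorization p + k) ?_ ?_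
          · rw [hL, ← Nat.card_congr (L₀.equivMapOfInjective _ E.subtype_injective).toEquiv]
            exact not_dvd_card hp hL₀
          · have e1 : L.relIndex E * E.index = L.index := Subgroup.relIndex_mul_index (Subgroup.map_subtype_le _)
            have e2 : L.relIndex E = L₀.index := by
              rw [hL, Subgroup.relIndex, Subgroup.subgroupOf, Subgroup.comap_map_eq_self_of_injective E.subtype_injective]
            have e3 : E.index ∣ p ^ k := by
              rw [index_of_sup_top hEt, ← hk]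
              exact Subgroup.relIndex_dvd_card E N
            rw [← e1, e2, hL₀, pow_add]
            exact mul_dvd_mul_left _ e3
        refine ⟨L, hLc, ?_⟩
        have hle : E ≤ Subgroup.normalizer (L : Set G) := (Subgroup.normal_subgroupOf_iff_le_normalizer (Subgroup.map_subtype_le _)).mp (by
          rw [Subgroup.subgroupOf, Subgroup.comap_map_eq_self_of_injective E.subtype_injective]
          exact hL₀n)
        haveI := (key N hNp hLc).1.1
        exact eq_of_nilpotent hE.2 hle
      obtain ⟨L1, hL1, hC1⟩ := hform C' hCg ht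
      obtain ⟨L2, hL2, hD2⟩ := hform D hD (hsup.symm.trans ht)
      obtain ⟨x, -, hx⟩ := conj_within (X := ⊤) hp hL1 hL2 le_top le_top
      refine ⟨x, ?_⟩
      rw [hC1, hD2, ← hx, HallBasic.smul_eq_map, HallBasic.smul_eq_map]
      exact Subgroup.map_equiv_normalizer_eq L1 (MulAut.conj x)
    · obtain ⟨x, -, hx⟩ := hin _ _ _ ht le_sup_left (hsup ▸ le_sup_left) hCg hD
      exact ⟨x, hx⟩

theorem image {G : Type u} [Group G] [Finite G] [Group.IsSolvable G] {C : Subgroup G} (hC : IsCarterSubgroup C)
    (N : Subgroup G) [N.Normal] : IsCarterSubgroup (C.map (QuotientGroup.mk' N)) := by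
  refine image_carter hC fun g hg => ?_
  obtain ⟨x, hx⟩ := conjugate ((MulAut.conj g • C).subgroupOf (C ⊔ N)) (C.subgroupOf (C ⊔ N))
    (subgroupOf_carter hg (conj_carter g hC)) (subgroupOf_carter le_sup_left hC)
  refine ⟨x, x.2, ?_⟩
  have h5 := congrArg (Subgroup.map (C ⊔ N).subtype) hx
  rw [HallBasic.smul_eq_map, Subgroup.map_map, Subgroup.map_subgroupOf_eq_of_le le_sup_left] at h5
  conv_rhs => rw [← h5]
  rw [HallBasic.smul_eq_map (x : G)]
  conv_lhs => rw [← Subgroup.map_subgroupOf_eq_of_le hg, Subgroup.map_map]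
  rfl

theorem exists_carter {G : Type u} [Group G] [Finite G] [Group.IsSolvable G] : ∃ C : Subgroup G, IsCarterSubgroup C := by
  classical
  induction hn : Nat.card G using Nat.strong_induction_on generalizing G with
  | _ n ih =>
    subst hn
    by_cases hnt : Nontrivial G
    swap
    · rw [not_nontrivial_iff_subsingleton] at hnt
      exact ⟨⊤, inferInstance, Subsingleton.elim _ _⟩
    obtain ⟨N, hNn, hN0, p, hp, hNp⟩ := exists_minNormal G
    haveI := hNn
    haveI := Fact.mk hp
    set π := QuotientGroup.mk' N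
    have hπ := QuotientGroup.mk'_surjective N
    haveI : Group.IsSolvable (G ⧸ N) := Group.isSolvable_of_surjective hπ
    obtain ⟨Cb, hCb⟩ := ih _ (card_quotient_lt hN0) (G := G ⧸ N) rfl
    set X := Cb.comap π with hX
    by_cases hXt : X = ⊤
    · have hCt : Cb = ⊤ := Subgroup.comap_injective hπ (hXt.trans (Subgroup.comap_top _).symm)
      haveI : Group.IsNilpotent (G ⧸ N) := nilpotent_of_top hCb.1 hCt
      obtain ⟨L, hL⟩ := exists_compl G p hp
      exact ⟨_, (key N hNp hL).1⟩
    · have hlt : Nat.card X < Nat.card G := lt_of_le_of_ne (Subgroup.card_le_card_group _)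
        (fun h => hXt (Subgroup.eq_top_of_card_eq _ h))
      obtain ⟨C, hC⟩ := ih _ hlt (G := X) rfl
      refine ⟨C.map X.subtype, haveI := hC.1; Group.nilpotent_of_surjective _ (X.subtype.subgroupMap_surjective C), ?_⟩
      let ρ : X →* Cb := (π.comp X.subtype).codRestrict Cb (fun x => x.2)
      haveI : Group.IsNilpotent (X ⧸ ρ.ker) :=
        haveI := hCb.1
        nilpotent_of_injective (QuotientGroup.kerLift ρ) (QuotientGroup.kerLift_injective ρ)
      have hcover : C ⊔ ρ.ker = ⊤ := by
        have := eq_top_of_normalizer_self (image hC ρ.ker).2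
        rw [← QuotientGroup.ker_mk' ρ.ker, ← Subgroup.comap_map_eq, this, Subgroup.comap_top]
      refine le_antisymm (fun x hx => ?_) Subgroup.le_normalizer
      have hmap : (C.map X.subtype).map π = Cb := by
        refine le_antisymm ?_ fun y hy => ?_
        · rintro _ ⟨_, ⟨c, -, rfl⟩, rfl⟩; exact c.2
        · obtain ⟨g, rfl⟩ := hπ y
          have hg : (⟨g, hy⟩ : X) ∈ C ⊔ ρ.ker := hcover ▸ Subgroup.mem_top _
          have h2 := Subgroup.mem_map_of_mem (π.comp X.subtype) hg
          rw [Subgroup.map_sup, (Subgroup.map_eq_bot_iff ρ.ker).mpr (fun k hk => congrArg Subtype.val hk), sup_bot_eq,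
            ← Subgroup.map_map] at h2
          exact h2
      have hxX : x ∈ X := by
        show π x ∈ Cb
        rw [← hCb.2]
        have := Subgroup.le_normalizer_map π (Subgroup.mem_map_of_mem π hx)
        rwa [hmap] at this
      refine ⟨⟨x, hxX⟩, ?_, rfl⟩
      rw [SetLike.mem_coe, ← hC.2]
      refine Subgroup.mem_normalizer_fintype fun z hz => ?_
      obtain ⟨z', hz', he⟩ := (Subgroup.mem_normalizer_iff.mp hx (z : G)).mp (Subgroup.mem_map_of_mem X.subtype hz)
      rwa [show (⟨x, hxX⟩ : X) * z * ⟨x, hxX⟩⁻¹ = z' from Subtype.ext he.symm]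

end CfsgLib.Solvable.Carter
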