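import Cfsg.Agent.Lib.Solvable.Carter

/-! Carter subgroups contain system normalizers. -/

set_option autoImplicit false
set_option linter.style.haveILetI false

namespace CfsgLib.Solvable.CarterSystem

open Cfsg
open CfsgLib.Solvable.HallSystem CfsgLib.Solvable.Carter
open scoped Pointwise

universe u

/-- The system `K` reduces into `C`. -/
def Reduces {G : Type u} [Group G] (K : Nat.Primes → Subgroup G) (C : Subgroup G) : Prop :=
  IsComplementSystem (fun p => (K p).subgroupOf C)

variable {G : Type u} [Group G] [Finite G]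

theorem compl_subgroupOf {p : ℕ} (hp : p.Prime) {A X : Subgroup G} (hA : ¬ p ∣ Nat.card A) {k : ℕ}
    (h : A.relIndex X ∣ p ^ k) : Compl p (A.subgroupOf X) :=
  compl_of hp (fun hd => hA (hd.trans (Subgroup.card_comap_dvd_of_injective A X.subtype X.subtype_injective))) h

theorem relIndex_reduces {K : Nat.Primes → Subgroup G} {C : Subgroup G} (h : Reduces K C) (q : Nat.Primes) :
    (K q).relIndex C = (q : ℕ) ^ (Nat.card C).factorization q := h q

theorem exists_reducing [Group.IsSolvable G] (C : Subgroup G) :
    ∃ K : Nat.Primes → Subgroup G, IsComplementSystem K ∧ Reduces K C := by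
  classical
  have hq : ∀ q : Nat.Primes, ∃ Kq : Subgroup G, Compl (q : ℕ) Kq ∧ Compl (q : ℕ) (Kq.subgroupOf C) := by
    intro q
    haveI : Group.IsSolvable C := inferInstance
    obtain ⟨L₀, hL₀⟩ := exists_compl C q q.2
    obtain ⟨L, hL⟩ := exists_compl G q q.2
    obtain ⟨c1, c2⟩ := card_eq q.2 hL
    have hcop : (Nat.card ↥(L₀.map C.subtype)).Coprime ((q : ℕ) ^ (Nat.card G).factorization q) := by
      rw [← Nat.card_congr (L₀.equivMapOfInjective _ C.subtype_injective).toEquiv]
      exact ((q.2.coprime_iff_not_dvd.mpr (not_dvd_card q.2 hL₀)).symm).pow_right _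
    obtain ⟨H, hH, hle⟩ := HallBasic.exists_card_ge c1 c2 hcop
    have hHc : Compl (q : ℕ) H := by
      refine Nat.eq_of_mul_eq_mul_left (Nat.card_pos (α := H)) ?_
      rw [H.card_mul_index, hH]; exact c1
    refine ⟨H, hHc, compl_subgroupOf q.2 (not_dvd_card q.2 hHc) (k := (Nat.card C).factorization q) ?_⟩
    refine (Subgroup.relIndex_dvd_of_le_left C hle).trans (dvd_of_eq ?_)
    rw [Subgroup.relIndex, Subgroup.subgroupOf, Subgroup.comap_map_eq_self_of_injective C.subtype_injective]
    exact hL₀
  choose K hK1 hK2 using hq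
  exact ⟨K, hK1, hK2⟩

theorem systemNormalizer_le {G : Type u} [Group G] [Finite G] [Group.IsSolvable G] {C : Subgroup G}
    (hC : IsCarterSubgroup C) {K : Nat.Primes → Subgroup G} (hK : IsComplementSystem K) (hr : Reduces K C) :
    systemNormalizer K ≤ C := by
  classical
  induction hn : Nat.card G using Nat.strong_induction_on generalizing G with
  | _ n ih =>
    subst hn
    by_cases hnt : Nontrivial G
    swap
    · rw [not_nontrivial_iff_subsingleton] at hnt
      exact fun x _ => Subsingleton.elim (1 : G) x ▸ C.one_mem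
    obtain ⟨N, hNn, hN0, p, hp, hNp⟩ := exists_minNormal G
    haveI := hNn
    haveI := Fact.mk hp
    set pp : Nat.Primes := ⟨p, hp⟩
    set π := QuotientGroup.mk' N with hπd
    have hπ := QuotientGroup.mk'_surjective N
    haveI : Group.IsSolvable (G ⧸ N) := Group.isSolvable_of_surjective hπ
    obtain ⟨hKb, hD⟩ := HallSystem.quotient K hK N
    have hrb : Reduces (fun q => (K q).map π) (C.map π) := fun q => by
      refine compl_subgroupOf q.2 (not_dvd_card q.2 (hKb q)) (k := (Nat.card C).factorization q) ?_
      rw [← Subgroup.relIndex_comap, ← relIndex_reduces hr q]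
      exact Subgroup.relIndex_dvd_of_le_left C (Subgroup.le_comap_map π (K q))
    have hle := ih _ (card_quotient_lt hN0) (G := G ⧸ N) (image hC N) hKb hrb rfl
    set X := C ⊔ N with hX
    have hXc : (C.map π).comap π = X := by rw [Subgroup.comap_map_eq, QuotientGroup.ker_mk']
    have hDX : systemNormalizer K ≤ X := fun x hx => by
      rw [← hXc]
      exact hle (hD.ge (Subgroup.mem_map_of_mem π hx))
    by_cases hXt : X = ⊤
    · have hmt : C.map π = ⊤ := by
        have := congrArg (Subgroup.map π) hXt
        rwa [hX, Subgroup.map_sup, Subgroup.map_top_of_surjective _ hπ,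
          (Subgroup.map_eq_bot_iff N).mpr (QuotientGroup.ker_mk' N).ge, sup_bot_eq] at this
      haveI : Group.IsNilpotent (G ⧸ N) := nilpotent_of_top (image hC N).1 hmt
      have hKC : (K pp : Subgroup G) ⊓ C = K pp := by
        refine Subgroup.eq_of_le_of_card_ge inf_le_left (Nat.le_of_dvd Nat.card_pos ?_)
        obtain ⟨k, hk⟩ := hNp.exists_card_eq
        have h2 : Compl p ((K pp) ⊓ C) := by
          refine compl_of hp (fun h => not_dvd_card hp (hK pp) (h.trans (Subgroup.card_dvd_of_le inf_le_left)))
            (k := (Nat.card C).factorization p + k) ?_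
          rw [← Subgroup.relIndex_mul_index (inf_le_right : K pp ⊓ C ≤ C), Subgroup.inf_relIndex_right,
            relIndex_reduces hr pp, pow_add]
          exact mul_dvd_mul_left _ (by rw [index_of_sup_top hXt, ← hk]; exact Subgroup.relIndex_dvd_card C N)
        refine dvd_of_eq (Nat.eq_of_mul_eq_mul_right (pow_pos hp.pos ((Nat.card G).factorization p)) ?_)
        rw [← (card_eq hp (hK pp)).1, ← (card_eq hp h2).1]
      have hKle : K pp ≤ C := inf_eq_left.mp hKC
      have hnorm : C ≤ Subgroup.normalizer (K pp : Set G) := by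
        haveI := hC.1
        have := normal_of_nilpotent hp (hr pp)
        exact (Subgroup.normal_subgroupOf_iff_le_normalizer hKle).mp this
      haveI := (key N hNp (hK pp)).1.1
      rw [eq_of_nilpotent hC.2 hnorm]
      exact iInf_le _ pp
    · have hlt : Nat.card X < Nat.card G := lt_of_le_of_ne (Subgroup.card_le_card_group _)
        (fun h => hXt (Subgroup.eq_top_of_card_eq _ h))
      have hrX : Reduces K X := fun q => by
        by_cases hqp : q = pp
        · subst hqp
          obtain ⟨k, hk⟩ := hNp.exists_card_eq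
          refine compl_subgroupOf hp (not_dvd_card hp (hK pp)) (k := (Nat.card C).factorization p + k) ?_
          refine (Subgroup.relIndex_dvd_of_le_left X (inf_le_left : K pp ⊓ C ≤ K pp)).trans ?_
          rw [← Subgroup.relIndex_mul_relIndex (K pp ⊓ C) C X inf_le_right le_sup_left, Subgroup.inf_relIndex_right,
            relIndex_reduces hr pp, pow_add]
          refine mul_dvd_mul_left _ ?_
          have h4 := index_of_sup_top (X := C.subgroupOf X) (F := N.subgroupOf X)
            (by rw [← Subgroup.subgroupOf_sup le_sup_left le_sup_right]; exact Subgroup.subgroupOf_self X)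
          rw [show C.relIndex X = (C.subgroupOf X).index from rfl, h4, ← hk,
            ← Nat.card_congr (Subgroup.subgroupOfEquivOfLe (le_sup_right : N ≤ X)).toEquiv]
          exact Subgroup.relIndex_dvd_card _ _
        · have hNq : N ≤ K q := by
            refine le_compl q.2 (hK q) ?_
            obtain ⟨k, hk⟩ := hNp.exists_card_eq
            rw [hk]
            exact fun h => hqp (Subtype.ext ((Nat.prime_dvd_prime_iff_eq q.2 hp).mp (q.2.dvd_of_dvd_pow h)))
          refine compl_subgroupOf q.2 (not_dvd_card q.2 (hK q)) (k := (Nat.card C).factorization q) (dvd_of_eq ?_)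
          have hcm : ((K q).map π).comap π = K q := Subgroup.comap_map_eq_self (by rwa [QuotientGroup.ker_mk'])
          rw [← relIndex_reduces hr q]
          conv_lhs => rw [← hcm, Subgroup.relIndex_comap]
          conv_rhs => rw [← hcm, Subgroup.relIndex_comap]
          rw [hX, Subgroup.map_sup, (Subgroup.map_eq_bot_iff N).mpr (QuotientGroup.ker_mk' N).ge, sup_bot_eq]
      have hrC : Reduces (fun q => (K q).subgroupOf X) (C.subgroupOf X) := fun q => by
        refine compl_subgroupOf q.2 (not_dvd_card q.2 (hrX q)) (k := (Nat.card C).factorization q) (dvd_of_eq ?_)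
        rw [← relIndex_reduces hr q]
        exact Subgroup.relIndex_subgroupOf le_sup_left
      have h5 := ih _ hlt (G := X) (subgroupOf_carter le_sup_left hC) hrX hrC rfl
      intro x hx
      have h6 : (⟨x, hDX hx⟩ : X) ∈ C.subgroupOf X := by
        refine h5 (Subgroup.mem_iInf.mpr fun q => Subgroup.mem_normalizer_fintype fun y hy => ?_)
        exact (Subgroup.mem_normalizer_iff.mp (Subgroup.mem_iInf.mp hx q) (y : G)).mp hy
      exact h6

theorem exists_le [Group.IsSolvable G] {K : Nat.Primes → Subgroup G} (hK : IsComplementSystem K) :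
    ∃ C : Subgroup G, IsCarterSubgroup C ∧ systemNormalizer K ≤ C := by
  obtain ⟨C, hC⟩ := exists_carter (G := G)
  obtain ⟨L, hL, hr⟩ := exists_reducing C
  obtain ⟨g, hg⟩ := HallSystem.all_conj L K hL hK
  refine ⟨_, conj_carter g hC, fun x hx => ?_⟩
  have h2 : g⁻¹ * x * g ∈ systemNormalizer L := Subgroup.mem_iInf.mpr fun q => by
    have h1 := Subgroup.mem_iInf.mp hx q
    rw [← hg q, HallBasic.smul_eq_map] at h1
    have h3 := (Subgroup.map_equiv_normalizer_eq (L q) (MulAut.conj g)).ge h1
    obtain ⟨y, hy, rfl⟩ := h3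
    simpa [mul_assoc] using hy
  exact ⟨_, systemNormalizer_le hC hL hr h2, by simp [mul_assoc]⟩

theorem eq_systemNormalizer [Group.IsSolvable G] (F : Subgroup G) [F.Normal] [Group.IsNilpotent F] [Group.IsNilpotent (G ⧸ F)]
    {C : Subgroup G} (hC : IsCarterSubgroup C) {K : Nat.Primes → Subgroup G} (hK : IsComplementSystem K) (hr : Reduces K C) :
    C = systemNormalizer K := by
  refine le_antisymm (le_iInf fun q => ?_) (systemNormalizer_le hC hK hr)
  have hCF : C ⊔ F = ⊤ := by
    have := eq_top_of_normalizer_self (image hC F).2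
    rw [← QuotientGroup.ker_mk' F, ← Subgroup.comap_map_eq, this, Subgroup.comap_top]
  have hA : ∀ c ∈ C, ∀ y ∈ K q ⊓ F, c * y * c⁻¹ ∈ K q ⊓ F := by
    intro c hc y hy
    have hF' : Compl (q : ℕ) ((K q ⊓ F).subgroupOf F) := by
      refine compl_subgroupOf q.2 (fun h => not_dvd_card q.2 (hK q) (h.trans (Subgroup.card_dvd_of_le inf_le_left)))
        (k := (Nat.card G).factorization q) ?_
      rw [Subgroup.inf_relIndex_right, ← hK q]
      exact HallSystem.relIndex_dvd (K q) F
    haveI hn : ((K q ⊓ F).subgroupOf F).Normal := normal_of_nilpotent q.2 hF'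
    have hcy : c * y * c⁻¹ ∈ F := ‹F.Normal›.conj_mem y hy.2 c
    have h1 : (⟨c * y * c⁻¹, hcy⟩ : F) ∈ (K q ⊓ F).subgroupOf F := by
      refine mem_of_normalizes q.2 hF' (by rw [Subgroup.normalizer_eq_top _]; trivial) fun h => ?_
      rw [← Subgroup.orderOf_coe] at h
      replace h : (q : ℕ) ∣ orderOf (MulAut.conj c y) := h
      rw [MulEquiv.orderOf_eq] at h
      exact not_dvd_card q.2 (hK q) (h.trans (Subgroup.orderOf_dvd_natCard (K q) hy.1))
    exact h1
  haveI := hC.1
  haveI hn : ((K q).subgroupOf C).Normal := normal_of_nilpotent q.2 (hr q)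
  set T := (K q ⊓ F) ⊔ (K q ⊓ C) with hT
  have hCT : C ≤ Subgroup.normalizer (T : Set G) := by
    intro c hc
    refine Subgroup.mem_normalizer_iff_map_conj_eq.mpr (Subgroup.eq_of_le_of_card_ge ?_
      (Nat.card_congr (T.equivMapOfInjective _ (MulAut.conj c).injective).toEquiv).le)
    rw [hT, Subgroup.map_sup]
    refine sup_le_sup ?_ ?_
    · rintro _ ⟨y, hy, rfl⟩; exact hA c hc y hy
    · rintro _ ⟨y, hy, rfl⟩
      exact ⟨hn.conj_mem ⟨y, hy.2⟩ hy.1 ⟨c, hc⟩, C.mul_mem (C.mul_mem hc hy.2) (C.inv_mem hc)⟩
  have hTK : T = K q := by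
    have hle : T ≤ K q := sup_le inf_le_left inf_le_left
    refine Subgroup.eq_of_le_of_card_ge hle (Nat.le_of_dvd Nat.card_pos (dvd_of_eq ?_))
    have hTc : Compl (q : ℕ) T := by
      refine compl_of q.2 (fun h => not_dvd_card q.2 (hK q) (h.trans (Subgroup.card_dvd_of_le hle)))
        (k := (Nat.card C).factorization q + (Nat.card G).factorization q) ?_
      rw [← Subgroup.relIndex_mul_index (le_sup_left : T ≤ T ⊔ C), CfsgLib.GroupB.Coprime.relIndex_sup_of_le_normalizer hCT,
        pow_add]
      refine mul_dvd_mul ?_ ?_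
      · rw [← relIndex_reduces hr q, ← Subgroup.inf_relIndex_right (K q) C]
        exact Subgroup.relIndex_dvd_of_le_left C le_sup_right
      · rw [index_of_sup_top (X := T ⊔ C) (F := F) (top_le_iff.mp (hCF ▸ sup_le_sup_right le_sup_right F)), ← hK q]
        refine (Subgroup.relIndex_dvd_of_le_left F (le_sup_left.trans le_sup_left : K q ⊓ F ≤ T ⊔ C)).trans ?_
        rw [Subgroup.inf_relIndex_right]
        exact HallSystem.relIndex_dvd (K q) F
    exact Nat.eq_of_mul_eq_mul_right (pow_pos q.2.pos _) ((card_eq q.2 (hK q)).1.symm.trans (card_eq q.2 hTc).1)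
  rw [← hTK]
  exact hCT

theorem iff_systemNormalizer (F : Subgroup G) [F.Normal] (hF : Group.IsNilpotent F) (hGF : Group.IsNilpotent (G ⧸ F))
    (C : Subgroup G) : IsCarterSubgroup C ↔ ∃ K : Nat.Primes → Subgroup G, IsComplementSystem K ∧ C = systemNormalizer K := by
  haveI := hF
  haveI := hGF
  haveI : Group.IsSolvable G := Group.isSolvable_of_ker_le_range F.subtype (QuotientGroup.mk' F) (by simp)
  refine ⟨fun hC => ?_, ?_⟩
  · obtain ⟨K, hK, hr⟩ := exists_reducing C
    exact ⟨K, hK, eq_systemNormalizer F hC hK hr⟩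
  · rintro ⟨K, hK, rfl⟩
    obtain ⟨C, hC⟩ := exists_carter (G := G)
    obtain ⟨L, hL, hr⟩ := exists_reducing C
    have hCe := eq_systemNormalizer F hC hL hr
    obtain ⟨g, hg⟩ := HallSystem.all_conj L K hL hK
    have : systemNormalizer K = MulAut.conj g • C := by
      rw [hCe, HallBasic.smul_eq_map]
      refine SetLike.ext fun x => ?_
      have hq : ∀ q, Subgroup.normalizer (K q : Set G) = (Subgroup.normalizer (L q : Set G)).map (MulAut.conj g).toMonoidHom := fun q => by
        rw [← hg q, HallBasic.smul_eq_map]; exact (Subgroup.map_equiv_normalizer_eq (L q) (MulAut.conj g)).symm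
      show x ∈ (⨅ q, Subgroup.normalizer (K q : Set G)) ↔ x ∈ (⨅ q, Subgroup.normalizer (L q : Set G)).map (MulAut.conj g).toMonoidHom
      rw [Subgroup.map_iInf _ (MulAut.conj g).injective]
      simp only [hq]
    rw [this]
    exact conj_carter g hC

end CfsgLib.Solvable.CarterSystem
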