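import Cfsg.Agent.Lib.Solvable.HallSystem
import Cfsg.Agent.Lib.PLocal.SolvablePrimitive

/-! System normalizers cover central and avoid eccentric chief factors. -/

set_option autoImplicit false
set_option linter.style.haveILetI false

namespace CfsgLib.Solvable.CoverAvoid

open Cfsg
open scoped Pointwise commutatorElement

universe u

variable {G : Type u} [Group G] [Finite G] [Group.IsSolvable G]

theorem minimal_case (K : Nat.Primes → Subgroup G) (hK : IsComplementSystem K) (N : Subgroup G) [hNn : N.Normal]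
    (hN : N ≠ ⊥) (hmin : ∀ M : Subgroup G, M.Normal → M ≤ N → M = ⊥ ∨ M = N) :
    (N ≤ Subgroup.center G → N ≤ systemNormalizer K) ∧ (¬ N ≤ Subgroup.center G → N ⊓ systemNormalizer K = ⊥) := by
  classical
  refine ⟨fun hc x hx => Subgroup.mem_iInf.mpr fun p => Subgroup.mem_normalizer_fintype fun y hy => ?_, fun hc => ?_⟩
  · show x * y * x⁻¹ ∈ K p
    rwa [← Subgroup.mem_center_iff.mp (hc hx) y, mul_inv_cancel_right]
  obtain ⟨-, p, d, hp, -, hcard⟩ := CfsgLib.PLocal.minNormal_solvable N hN hmin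
  haveI := Fact.mk hp
  have hNp : IsPGroup p N := IsPGroup.of_card hcard
  set pp : Nat.Primes := ⟨p, hp⟩
  set C := Subgroup.centralizer (N : Set G) with hC
  haveI hCn : C.Normal := Subgroup.normal_centralizer
  have hfix : ∀ R : Subgroup G, R.Normal → ¬ R ≤ C → N ⊓ Subgroup.centralizer (R : Set G) = ⊥ := by
    intro R hR hRC
    haveI := hR
    rcases hmin _ inferInstance (inf_le_left : N ⊓ Subgroup.centralizer (R : Set G) ≤ N) with h | h
    · exact h
    · exact absurd (Subgroup.le_centralizer_iff.mp (inf_eq_left.mp h)) hRC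
  have hkey : N ⊓ Subgroup.centralizer ((K pp : Subgroup G) : Set G) = ⊥ := by
    have hCt : C ≠ ⊤ := fun e => hc (fun x hx => Subgroup.mem_center_iff.mpr fun y =>
      (Subgroup.mem_centralizer_iff.mp (show y ∈ C from e ▸ Subgroup.mem_top y) x hx).symm)
    haveI : Nontrivial (G ⧸ C) := QuotientGroup.nontrivial_iff.mpr hCt
    obtain ⟨Rb, hRb⟩ := (Set.toFinite {R : Subgroup (G ⧸ C) | R.Normal ∧ R ≠ ⊥}).exists_minimal
      ⟨⊤, inferInstance, top_ne_bot⟩
    obtain ⟨hRn, hR0⟩ := hRb.prop
    haveI := hRn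
    haveI : Group.IsSolvable (G ⧸ C) := Group.isSolvable_of_surjective (QuotientGroup.mk'_surjective C)
    obtain ⟨-, q, e, hq, he, hqc⟩ := CfsgLib.PLocal.minNormal_solvable Rb hR0 fun M hM hMR =>
      or_iff_not_imp_left.mpr fun hM0 => le_antisymm hMR (hRb.le_of_le ⟨hM, hM0⟩ hMR)
    set R := Rb.comap (QuotientGroup.mk' C) with hRd
    haveI hRnor : R.Normal := hRn.comap _
    have hRC : ¬ R ≤ C := fun h => hR0 (by
      rw [← Subgroup.map_comap_eq_self_of_surjective (QuotientGroup.mk'_surjective C) Rb, ← hRd,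
        Subgroup.map_eq_bot_iff, QuotientGroup.ker_mk']
      exact h)
    have hCR : C ≤ R := (QuotientGroup.ker_mk' C).ge.trans (MonoidHom.ker_le_comap _ _)
    have hrel : C.relIndex R = q ^ e := by
      rw [← hqc, ← Subgroup.relIndex_bot_left, ← Subgroup.map_comap_eq_self_of_surjective (QuotientGroup.mk'_surjective C) Rb,
        ← Subgroup.relIndex_comap, MonoidHom.comap_bot, QuotientGroup.ker_mk']
    by_cases hqp : q = p
    · exfalso
      subst hqp
      obtain ⟨S⟩ : Nonempty (Sylow q R) := inferInstance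
      set P := (S : Subgroup R).map R.subtype with hP
      have hPp : IsPGroup q P := S.2.map _
      have hsup : R ≤ C ⊔ P := by
        have hA : C ⊔ P ≤ R := sup_le hCR (Subgroup.map_subtype_le _)
        rw [← Subgroup.relIndex_eq_one]
        refine Nat.eq_one_of_dvd_coprimes ?_ (Subgroup.relIndex_dvd_of_le_left R (le_sup_left : C ≤ C ⊔ P)) (Subgroup.relIndex_dvd_of_le_left R (le_sup_right : P ≤ C ⊔ P))
        rw [hrel]
        refine Nat.Coprime.pow_left e ((hq.coprime_iff_not_dvd).mpr ?_)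
        rw [hP, Subgroup.relIndex, Subgroup.subgroupOf, Subgroup.comap_map_eq_self_of_injective R.subtype_injective]
        exact S.not_dvd_index
      letI : MulAction P N := MulAction.compHom N ((MulAut.conjNormal (H := N)).comp P.subtype)
      obtain ⟨b, hb, hb1⟩ := hPp.exists_fixed_point_of_prime_dvd_card_of_fixed_point N
        (hcard ▸ dvd_pow_self q (by
          rintro rfl
          rw [pow_zero] at hcard
          exact hN (Subgroup.card_eq_one.mp hcard)))
        (a := (1 : N)) (fun g => by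
          show MulAut.conjNormal (g : G) (1 : N) = 1
          rw [map_one])
      have hbR : (b : G) ∈ N ⊓ Subgroup.centralizer (R : Set G) := by
        refine ⟨b.2, ?_⟩
        have hle : C ⊔ P ≤ Subgroup.centralizer ({(b : G)} : Set G) := sup_le
          (fun c hc => Subgroup.mem_centralizer_singleton_iff.mpr ((Subgroup.mem_centralizer_iff.mp hc _ b.2).symm))
          (fun g hg => by
            have h2 := congrArg Subtype.val (hb ⟨g, hg⟩)
            change ((MulAut.conjNormal g : MulAut N) b : G) = b at h2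
            rw [MulAut.conjNormal_apply, mul_inv_eq_iff_eq_mul] at h2
            exact Subgroup.mem_centralizer_singleton_iff.mpr h2)
        exact Subgroup.mem_centralizer_iff.mpr fun r hr => Subgroup.mem_centralizer_singleton_iff.mp (hle (hsup hr))
      rw [hfix R hRnor hRC, Subgroup.mem_bot] at hbR
      exact hb1 (Subtype.ext hbR.symm)
    · have hle : R ≤ K pp ⊔ C := by
        rw [← Subgroup.relIndex_eq_one]
        refine Nat.eq_one_of_dvd_coprimes ?_ (Subgroup.relIndex_dvd_of_le_left R le_sup_right)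
          ((HallSystem.relIndex_dvd (K pp ⊔ C) R).trans (Subgroup.index_dvd_of_le le_sup_left))
        rw [hrel, hK pp]
        exact ((Nat.coprime_primes hq hp).mpr hqp).pow _ _
      rw [eq_bot_iff]
      rintro x ⟨hxN, hxK⟩
      rw [← hfix R hRnor hRC]
      refine ⟨hxN, Subgroup.mem_centralizer_iff.mpr fun r hr => ?_⟩
      have hle2 : K pp ⊔ C ≤ Subgroup.centralizer ({x} : Set G) := sup_le
        (fun k hk => Subgroup.mem_centralizer_singleton_iff.mpr (Subgroup.mem_centralizer_iff.mp hxK k hk))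
        (fun c hc => Subgroup.mem_centralizer_singleton_iff.mpr ((Subgroup.mem_centralizer_iff.mp hc x hxN).symm))
      exact Subgroup.mem_centralizer_singleton_iff.mp (hle2 (hle hr))
  rw [eq_bot_iff, ← hkey]
  rintro x ⟨hxN, hxD⟩
  refine ⟨hxN, Subgroup.mem_centralizer_iff.mpr fun k hk => ?_⟩
  have hxn := Subgroup.mem_iInf.mp hxD pp
  have h1 : x * k * x⁻¹ * k⁻¹ ∈ K pp :=
    (K pp).mul_mem ((Subgroup.mem_normalizer_iff.mp hxn k).mp hk) ((K pp).inv_mem hk)
  have h2 : x * k * x⁻¹ * k⁻¹ ∈ N := by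
    rw [show x * k * x⁻¹ * k⁻¹ = x * (k * x⁻¹ * k⁻¹) by group]
    exact N.mul_mem hxN (hNn.conj_mem _ (N.inv_mem hxN) k)
  have hcop : (Nat.card ↥(K pp)).Coprime (Nat.card N) := by
    rw [hcard]
    exact ((hp.coprime_iff_not_dvd.mpr (HallSystem.not_dvd_card hp (hK pp))).symm).pow_right d
  have h3 : x * k * x⁻¹ * k⁻¹ = 1 := by
    have : x * k * x⁻¹ * k⁻¹ ∈ K pp ⊓ N := ⟨h1, h2⟩
    rw [disjoint_iff.mp (Subgroup.disjoint_of_coprime_natCard hcop), Subgroup.mem_bot] at this
    exact this
  rw [mul_inv_eq_one, mul_inv_eq_iff_eq_mul] at h3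
  exact h3.symm

theorem cover_avoid (K : Nat.Primes → Subgroup G) (hK : IsComplementSystem K) (A B : Subgroup G) [A.Normal] [B.Normal]
    (hAB : A < B) (hchief : ∀ N : Subgroup G, N.Normal → A ≤ N → N ≤ B → N = A ∨ N = B) :
    (⁅B, (⊤ : Subgroup G)⁆ ≤ A → B ≤ A ⊔ systemNormalizer K) ∧
      (¬ ⁅B, (⊤ : Subgroup G)⁆ ≤ A → B ⊓ systemNormalizer K ≤ A) := by
  classical
  set π := QuotientGroup.mk' A with hπd
  have hs := QuotientGroup.mk'_surjective A
  have hker : π.ker = A := QuotientGroup.ker_mk' A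
  haveI : Group.IsSolvable (G ⧸ A) := Group.isSolvable_of_surjective hs
  haveI : (B.map π).Normal := ‹B.Normal›.map π hs
  obtain ⟨hKb, hD⟩ := HallSystem.quotient K hK A
  have hBc : B = (B.map π).comap π := (Subgroup.comap_map_eq_self (hker.le.trans hAB.le)).symm
  have hB0 : B.map π ≠ ⊥ := fun e => hAB.ne (by rw [hBc, e, MonoidHom.comap_bot, hker])
  have hcomm : ⁅B, (⊤ : Subgroup G)⁆ ≤ A ↔ B.map π ≤ Subgroup.center (G ⧸ A) := by
    have hk : ⁅B, (⊤ : Subgroup G)⁆ ≤ A ↔ ⁅B, (⊤ : Subgroup G)⁆ ≤ π.ker := by rw [hker]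
    rw [hk, ← Subgroup.map_eq_bot_iff, Subgroup.map_commutator, Subgroup.map_top_of_surjective _ hs,
      Subgroup.commutator_eq_bot_iff_le_centralizer, Subgroup.coe_top, Subgroup.centralizer_univ]
  obtain ⟨h1, h2⟩ := minimal_case (fun p => (K p).map π) hKb (B.map π) hB0 fun M hM hMB => by
    have hc : A ≤ M.comap π := hker.ge.trans (MonoidHom.ker_le_comap _ _)
    rcases hchief (M.comap π) (hM.comap π) hc (hBc ▸ Subgroup.comap_mono hMB) with h | h
    · left; exact Subgroup.comap_injective hs (by rw [h, MonoidHom.comap_bot, hker])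
    · right; exact Subgroup.comap_injective hs (by rw [h, ← hBc])
  refine ⟨fun h x hx => ?_, fun h x hx => ?_⟩
  · have := h1 (hcomm.mp h) (Subgroup.mem_map_of_mem π hx)
    rw [hD] at this
    have h3 : x ∈ ((systemNormalizer K).map π).comap π := this
    rwa [Subgroup.comap_map_eq, hker, sup_comm] at h3
  · have h3 : π x ∈ B.map π ⊓ systemNormalizer (fun p => (K p).map π) :=
      ⟨Subgroup.mem_map_of_mem π hx.1, hD.ge (Subgroup.mem_map_of_mem π hx.2)⟩
    rw [h2 (fun h' => h (hcomm.mpr h')), Subgroup.mem_bot] at h3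
    exact (QuotientGroup.eq_one_iff x).mp h3

end CfsgLib.Solvable.CoverAvoid
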