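import Cfsg.Prelude.Def_SolvableStructure
import Cfsg.Agent.Lib.Solvable.HallBasic

/-! Solvable times abelian with every order attained. -/

set_option autoImplicit false
set_option linter.style.haveILetI false

namespace CfsgLib.Solvable.EveryOrder

universe u v

theorem comm_exists (A : Type u) [CommGroup A] [Finite A] (d : ℕ) (hd : d ∣ Nat.card A) :
    ∃ H : Subgroup A, Nat.card H = d := by
  induction hn : Nat.card A using Nat.strong_induction_on generalizing A d with
  | _ n ih =>
    subst hn
    by_cases h1 : d = 1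
    · exact ⟨⊥, by rw [Subgroup.card_bot, h1]⟩
    obtain ⟨q, hq, hqd⟩ := Nat.exists_prime_and_dvd h1
    haveI := Fact.mk hq
    obtain ⟨x, hx⟩ := exists_prime_orderOf_dvd_card' q (hqd.trans hd)
    set N := Subgroup.zpowers x with hN
    have hNc : Nat.card N = q := by rw [hN, Nat.card_zpowers, hx]
    obtain ⟨e, rfl⟩ := hqd
    have hA : Nat.card A = Nat.card (A ⧸ N) * q := by rw [N.card_eq_card_quotient_mul_card_subgroup, hNc]
    have hlt : Nat.card (A ⧸ N) < Nat.card A := by
      rw [hA]; exact lt_mul_of_one_lt_right Nat.card_pos hq.one_lt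
    obtain ⟨H, hH⟩ := ih _ hlt (A ⧸ N) e (by
      rw [hA, mul_comm _ q] at hd; exact Nat.dvd_of_mul_dvd_mul_left hq.pos hd) rfl
    refine ⟨H.comap (QuotientGroup.mk' N), ?_⟩
    have hs := QuotientGroup.mk'_surjective N
    have e1 := (H.comap (QuotientGroup.mk' N)).card_mul_index
    rw [Subgroup.index_comap_of_surjective H hs, hA, ← H.card_mul_index, hH, mul_right_comm] at e1
    rw [Nat.eq_of_mul_eq_mul_right (Nat.pos_of_ne_zero Subgroup.index_ne_zero_of_finite) e1, mul_comm]

theorem prod_every_order {G : Type u} {A : Type v} [Group G] [CommGroup A] [Finite G] [Finite A] [Group.IsSolvable G]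
    (hA : ∀ p : ℕ, p.Prime → p ∣ Nat.card A → p ∣ Nat.card G)
    (hexp : ∀ p : ℕ, p.Prime → p ∣ Nat.card G → (Nat.card A).factorization p + 1 = (Nat.card G).factorization p) :
    Cfsg.HasSubgroupOfEveryOrder (G × A) := by
  classical
  intro d hd
  rw [Nat.card_prod] at hd
  have hG0 : Nat.card G ≠ 0 := Nat.card_pos.ne'
  have hA0 : Nat.card A ≠ 0 := Nat.card_pos.ne'
  have hd0 : d ≠ 0 := fun e => mul_ne_zero hG0 hA0 (Nat.eq_zero_of_zero_dvd (e ▸ hd))
  set f := (Nat.card G).factorization.filter (fun p => (Nat.card G).factorization p ≤ d.factorization p) with hf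
  set d1 := f.prod (fun p k => p ^ k) with hd1
  have hf1 : d1.factorization = f := Nat.prod_pow_factorization_eq_self fun p hp => by
    rw [hf, Finsupp.support_filter, Finset.mem_filter, Nat.support_factorization] at hp
    exact Nat.prime_of_mem_primeFactors hp.1
  have hd1pos : d1 ≠ 0 := Finset.prod_ne_zero_iff.mpr fun p hp => pow_ne_zero _ (by
    rw [hf, Finsupp.support_filter, Finset.mem_filter, Nat.support_factorization] at hp
    exact (Nat.prime_of_mem_primeFactors hp.1).ne_zero)
  have hle : ∀ p, d1.factorization p = if (Nat.card G).factorization p ≤ d.factorization p then (Nat.card G).factorization p else 0 := by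
    intro p; rw [hf1, hf, Finsupp.filter_apply]
  have hdG : d1 ∣ Nat.card G := (Nat.factorization_le_iff_dvd hd1pos hG0).mp fun p => by
    rw [hle]; split <;> omega
  obtain ⟨n, hn⟩ := hdG
  have hn0 : n ≠ 0 := fun e => hG0 (by rw [hn, e, mul_zero])
  have hcop : d1.Coprime n := by
    refine Nat.coprime_of_dvd' fun p hp h1 h2 => ?_
    have := congrArg (fun m => m.factorization p) hn
    simp only [Nat.factorization_mul hd1pos hn0, Finsupp.add_apply, hle] at this
    have a1 := hp.factorization_pos_of_dvd hd1pos h1
    have a2 := hp.factorization_pos_of_dvd hn0 h2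
    rw [hle] at a1
    split at a1 <;> split at this <;> omega
  obtain ⟨H, hH⟩ := HallBasic.exists_card hn hcop
  have hdd : d1 ∣ d := (Nat.factorization_le_iff_dvd hd1pos hd0).mp fun p => by
    rw [hle]; split <;> omega
  obtain ⟨d2, hd2⟩ := hdd
  have hd20 : d2 ≠ 0 := fun e => hd0 (by rw [hd2, e, mul_zero])
  have hd2A : d2 ∣ Nat.card A := (Nat.factorization_le_iff_dvd hd20 hA0).mp fun p => by
    have h1 := congrArg (fun m => m.factorization p) hd2
    have h2 := (Nat.factorization_le_iff_dvd hd0 (mul_ne_zero hG0 hA0)).mpr hd p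
    simp only [Nat.factorization_mul hd1pos hd20, Finsupp.add_apply, hle] at h1
    simp only [Nat.factorization_mul hG0 hA0, Finsupp.add_apply] at h2
    by_cases hp : p.Prime
    · by_cases hpG : p ∣ Nat.card G
      · have := hexp p hp hpG
        split at h1 <;> omega
      · have h3 : (Nat.card A).factorization p = 0 := Nat.factorization_eq_zero_of_not_dvd fun h => hpG (hA p hp h)
        have h4 : (Nat.card G).factorization p = 0 := Nat.factorization_eq_zero_of_not_dvd hpG
        split at h1 <;> omega
    · simp [Nat.factorization_eq_zero_of_not_prime _ hp]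
  obtain ⟨B, hB⟩ := comm_exists A d2 hd2A
  refine ⟨H.prod B, ?_⟩
  rw [Nat.card_congr (Subgroup.prodEquiv H B).toEquiv, Nat.card_prod, hH, hB, hd2]

end CfsgLib.Solvable.EveryOrder
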