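import Cfsg.Agent.Lib.Solvable.HallBasic
import Cfsg.Agent.Lib.PLocal.ProductSet

/-! Normal Hall subgroups of two factors permute. -/

set_option autoImplicit false
set_option linter.style.haveILetI false

namespace CfsgLib.Solvable.FactorHall

open scoped Pointwise

universe u

variable {G : Type u} [Group G] [Finite G] [Group.IsSolvable G]

theorem mul_is_subgroup (H K A B : Subgroup G) (hHK : ∀ g : G, ∃ h ∈ H, ∃ k ∈ K, g = h * k)
    (hA : A ≤ H) (hAn : (A.subgroupOf H).Normal) (hB : B ≤ K) (hBn : (B.subgroupOf K).Normal)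
    (hAh : (Nat.card A).Coprime A.index) (hBh : (Nat.card B).Coprime B.index) :
    ∃ S : Subgroup G, (S : Set G) = (A : Set G) * (B : Set G) := by
  classical
  set m := Nat.lcm (Nat.card A) (Nat.card B) with hm
  obtain ⟨n, hn⟩ : m ∣ Nat.card G := Nat.lcm_dvd (Subgroup.card_subgroup_dvd_card A) (Subgroup.card_subgroup_dvd_card B)
  have hmn : m.Coprime n := by
    have h1 : ∀ X : Subgroup G, Nat.card X ∣ m → (Nat.card X).Coprime X.index → (Nat.card X).Coprime n := by
      intro X hX hc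
      obtain ⟨c, hc'⟩ := hX
      refine hc.coprime_dvd_right ⟨c, ?_⟩
      refine Nat.eq_of_mul_eq_mul_left (Nat.card_pos (α := X)) ?_
      rw [X.card_mul_index, hn, hc']; ring
    exact ((h1 A (Nat.dvd_lcm_left _ _) hAh).mul (h1 B (Nat.dvd_lcm_right _ _) hBh)).coprime_dvd_left
      (Nat.lcm_dvd_mul _ _)
  obtain ⟨S₁, hS₁, hAS₁⟩ := HallBasic.exists_card_ge hn hmn (K := A) (hmn.coprime_dvd_left (Nat.dvd_lcm_left _ _))
  obtain ⟨S₂, hS₂, hBS₂⟩ := HallBasic.exists_card_ge hn hmn (K := B) (hmn.coprime_dvd_left (Nat.dvd_lcm_right _ _))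
  obtain ⟨g, hg⟩ := HallBasic.exists_conj hn hmn hS₁ hS₂
  obtain ⟨h, hh, k, hk, hgk⟩ := hHK g⁻¹
  have hg' : g = k⁻¹ * h⁻¹ := by rw [← mul_inv_rev, ← hgk, inv_inv]
  set S := MulAut.conj h⁻¹ • S₁ with hS
  have hconj : ∀ (X N : Subgroup G), X ≤ N → (X.subgroupOf N).Normal → ∀ c ∈ N, MulAut.conj c • X = X := by
    intro X N hXN hn c hc
    have hle := (Subgroup.normal_subgroupOf_iff_le_normalizer hXN).mp hn hc
    rw [HallBasic.smul_eq_map]
    exact Subgroup.mem_normalizer_iff_map_conj_eq.mp hle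
  have hAS : A ≤ S := by
    rw [hS, ← hconj A H hA hAn h⁻¹ (H.inv_mem hh)]
    exact Subgroup.pointwise_smul_le_pointwise_smul_iff.mpr hAS₁
  have hBS : B ≤ S := by
    have : S₂ = MulAut.conj k⁻¹ • S := by rw [hS, ← hg, hg', map_mul, mul_smul]
    rw [this, ← hconj B K hB hBn k⁻¹ (K.inv_mem hk)] at hBS₂
    exact Subgroup.pointwise_smul_le_pointwise_smul_iff.mp hBS₂
  refine ⟨S, (Set.eq_of_subset_of_ncard_le (fun x hx => ?_) ?_).symm⟩
  · obtain ⟨a, ha, b, hb, rfl⟩ := hx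
    exact S.mul_mem (hAS ha) (hBS hb)
  · have hSc : Nat.card S = m := by
      rw [hS, HallBasic.smul_eq_map, ← hS₁]
      exact (Nat.card_congr (S₁.equivMapOfInjective _ (MulAut.conj h⁻¹).injective).toEquiv).symm
    have e := CfsgLib.PLocal.ProductSet.card_mul_eq A B
    rw [← SetLike.coe_sort_coe, Nat.card_coe_set_eq] at hSc
    rw [hSc, hm]
    rw [Nat.card_coe_set_eq] at e
    refine Nat.le_of_mul_le_mul_right ?_ (Nat.gcd_pos_of_pos_left (Nat.card B) (Nat.card_pos (α := A)))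
    rw [mul_comm (Nat.lcm _ _), Nat.gcd_mul_lcm, ← e]
    exact Nat.mul_le_mul_left _ (Nat.le_of_dvd (Nat.gcd_pos_of_pos_left _ Nat.card_pos)
      (Nat.dvd_gcd (Subgroup.card_dvd_of_le inf_le_left) (Subgroup.card_dvd_of_le inf_le_right)))

theorem conj_mul_is_subgroup (H K A B : Subgroup G) (hHK : ∀ g : G, ∃ h ∈ H, ∃ k ∈ K, g = h * k)
    (hA : A ≤ H) (hAn : (A.subgroupOf H).Normal) (hB : B ≤ K) (hBn : (B.subgroupOf K).Normal)
    (hAh : (Nat.card A).Coprime A.index) (hBh : (Nat.card B).Coprime B.index) (x y : G) :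
    ∃ S : Subgroup G, (S : Set G) = ((MulAut.conj x • A : Subgroup G) : Set G) * ((MulAut.conj y • B : Subgroup G) : Set G) := by
  obtain ⟨S, hS⟩ := mul_is_subgroup H K A B hHK hA hAn hB hBn hAh hBh
  obtain ⟨h, hh, k, hk, he⟩ := hHK (x⁻¹ * y)
  have hy : y = x * h * k := by rw [mul_assoc, ← he, mul_inv_cancel_left]
  have hAh' : MulAut.conj h • A = A := by
    rw [HallBasic.smul_eq_map]
    exact Subgroup.mem_normalizer_iff_map_conj_eq.mp ((Subgroup.normal_subgroupOf_iff_le_normalizer hA).mp hAn hh)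
  have hBk : MulAut.conj k • B = B := by
    rw [HallBasic.smul_eq_map]
    exact Subgroup.mem_normalizer_iff_map_conj_eq.mp ((Subgroup.normal_subgroupOf_iff_le_normalizer hB).mp hBn hk)
  refine ⟨MulAut.conj (x * h) • S, ?_⟩
  rw [Subgroup.coe_pointwise_smul, hS, smul_mul', ← Subgroup.coe_pointwise_smul, ← Subgroup.coe_pointwise_smul,
    map_mul, mul_smul, hAh', hy, map_mul, map_mul, mul_smul, mul_smul, hBk, mul_smul]

end CfsgLib.Solvable.FactorHall
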