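import Mathlib
import Cfsg.Agent.Lib.Core
import Cfsg.Agent.Lib.ChiefKernel
import Cfsg.Agent.Lib.IterChief

/-!
# The Fitting subgroup of a normal subgroup through chief factors
-/

set_option autoImplicit false
set_option linter.style.haveILetI false

namespace CfsgLib.Solvable.FittingChief

open Cfsg
open scoped commutatorElement

universe u

variable {G : Type u} [Group G] [Finite G]

theorem fitting_normal_eq (N : Subgroup G) [N.Normal] :
    (fittingSubgroup ↥N).map N.subtype = fittingSubgroup G ⊓ N := by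
  haveI : (fittingSubgroup G).Normal := CfsgLib.Core.fittingSubgroup_normal
  haveI := CfsgLib.Core.isNilpotent_fittingSubgroup (G := G)
  haveI := CfsgLib.Core.isNilpotent_fittingSubgroup (G := N)
  haveI := CfsgLib.Core.fittingSubgroup_characteristic (G := N)
  refine le_antisymm (le_inf (CfsgLib.Core.le_fittingSubgroup inferInstance ?_) (Subgroup.map_subtype_le _)) ?_
  · exact Group.nilpotent_of_mulEquiv ((fittingSubgroup ↥N).equivMapOfInjective _ N.subtype_injective)
  · rintro x ⟨hxF, hxN⟩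
    refine ⟨⟨x, hxN⟩, CfsgLib.Core.le_fittingSubgroup (N := (fittingSubgroup G).subgroupOf N) inferInstance ?_
      (Subgroup.mem_subgroupOf.mpr hxF), rfl⟩
    let f : ↥((fittingSubgroup G).subgroupOf N) →* ↥(fittingSubgroup G) :=
      (N.subtype.comp ((fittingSubgroup G).subgroupOf N).subtype).codRestrict (fittingSubgroup G)
        (fun y => Subgroup.mem_subgroupOf.mp y.2)
    have hinj : Function.Injective f := fun a b h => Subtype.ext (Subtype.ext (show (f a : G) = (f b : G) by rw [h]))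
    refine Subgroup.isNilpotent_of_ker_le_center f ?_
    rw [(MonoidHom.ker_eq_bot_iff f).mpr hinj]
    exact bot_le

theorem commutator_chief_le {F U V : Subgroup G} [F.Normal] (hnil : Group.IsNilpotent ↥F) (h : IsChiefFactor U V) :
    ⁅U, F⁆ ≤ V := by
  obtain ⟨hVU, hU, hV, hmin⟩ := h
  haveI := hU
  haveI := hV
  haveI : (⁅U, F⁆ ⊔ V).Normal := Subgroup.sup_normal _ _
  rcases hmin (⁅U, F⁆ ⊔ V) inferInstance le_sup_right (sup_le (Subgroup.commutator_le_left U F) hVU.le) with h1 | h1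
  · exact le_sup_left.trans h1.le
  · exfalso
    have key : ∀ k, U ≤ F.lowerCentralSeries k ⊔ V := by
      intro k
      induction k with
      | zero => exact h1.ge.trans (sup_le_sup_right (Subgroup.commutator_le_right U F) V)
      | succ k ih =>
        refine h1.ge.trans (sup_le ?_ le_sup_right)
        refine (Subgroup.commutator_mono ih le_rfl).trans ?_
        have := CfsgLib.IterChief.iter_sup_le (X := F.lowerCentralSeries k) (V := V) (G0 := F) 1
        exact this
    obtain ⟨n, hn⟩ := (Subgroup.isNilpotent_iff_lowerCentralSeries F).mp hnil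
    have := key n
    rw [hn, bot_sup_eq] at this
    exact hVU.not_ge this

theorem iter_bot {F M : Subgroup G} [M.Normal]
    (hM : ∀ U V : Subgroup G, IsChiefFactor U V → U ≤ F → ⁅U, M⁆ ≤ V) :
    ∀ (n : ℕ) (X : Subgroup G), Nat.card X = n → X.Normal → X ≤ F → ∃ k, iterCommutator X M k = ⊥ := by
  intro n
  induction n using Nat.strong_induction_on with
  | _ n ih =>
    intro X hn hX hXF
    rcases eq_or_ne X ⊥ with rfl | hX0
    · exact ⟨0, rfl⟩
    obtain ⟨Y, ⟨hYn, hYX⟩, hYmax⟩ := (Set.toFinite {Y : Subgroup G | Y.Normal ∧ Y < X}).exists_maximal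
      ⟨⊥, inferInstance, bot_lt_iff_ne_bot.mpr hX0⟩
    have hch : IsChiefFactor X Y := by
      refine ⟨hYX, hX, hYn, fun N hN h1 h2 => ?_⟩
      by_contra h
      push Not at h
      exact h.1 (le_antisymm (hYmax ⟨hN, lt_of_le_of_ne h2 h.2⟩ h1) h1)
    have hlt : Nat.card Y < n := hn ▸ lt_of_le_of_ne (Subgroup.card_le_of_le hYX.le)
      fun h => hYX.ne (Subgroup.eq_of_le_of_card_ge hYX.le h.ge)
    obtain ⟨k, hk⟩ := ih _ hlt Y rfl hYn (hYX.le.trans hXF)
    refine ⟨k + 1, le_bot_iff.mp ?_⟩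
    have hshift : ∀ j, iterCommutator X M (j + 1) = iterCommutator ⁅X, M⁆ M j := by
      intro j
      induction j with
      | zero => rfl
      | succ j ih' => show ⁅iterCommutator X M (j + 1), M⁆ = _; rw [ih']; rfl
    rw [hshift, ← hk]
    exact CfsgLib.IterChief.iter_mono (hM X Y hch hXF) k

theorem mem_of_trivial (hG : Group.IsSolvable G) (N : Subgroup G) [N.Normal] {g : G} (hgN : g ∈ N)
    (h : g ∈ CfsgLib.ChiefKernel.kerBelow (fittingSubgroup G ⊓ N)) : g ∈ fittingSubgroup G ⊓ N := by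
  haveI hFn : (fittingSubgroup G).Normal := CfsgLib.Core.fittingSubgroup_normal
  set F := fittingSubgroup G ⊓ N with hF
  set K := N ⊓ CfsgLib.ChiefKernel.kerBelow F with hK
  haveI : (CfsgLib.ChiefKernel.kerBelow F).Normal := CfsgLib.ChiefKernel.kerBelow_normal F
  haveI : F.Normal := by rw [hF]; infer_instance
  haveI : K.Normal := by rw [hK]; infer_instance
  have hFnil : Group.IsNilpotent ↥F := by
    haveI := CfsgLib.Core.isNilpotent_fittingSubgroup (G := G)
    exact Group.nilpotent_of_mulEquiv (Subgroup.subgroupOfEquivOfLe (inf_le_left : F ≤ fittingSubgroup G))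
  have hFK : F ≤ K := le_inf inf_le_right fun x hx U V hc _ u hu =>
    commutator_chief_le hFnil hc (Subgroup.commutator_mem_commutator hu hx)
  suffices hKF : K ≤ F from hKF (Subgroup.mem_inf.mpr ⟨hgN, h⟩)
  by_contra hne
  obtain ⟨M, ⟨hMn, hFM, hMK⟩, hMmin⟩ := (Set.toFinite {M : Subgroup G | M.Normal ∧ F < M ∧ M ≤ K}).exists_minimal
    ⟨K, inferInstance, lt_of_le_of_ne hFK fun e => hne e.ge, le_rfl⟩
  haveI := hMn
  have hMM : ⁅M, M⁆ ≤ F := by
    by_contra hnle
    have hW : ⁅M, M⁆ ⊔ F = M := by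
      refine le_antisymm (sup_le (Subgroup.commutator_le_left M M) hFM.le) ?_
      exact hMmin ⟨Subgroup.sup_normal _ _, lt_of_le_of_ne le_sup_right fun e => hnle (le_sup_left.trans e.ge),
        sup_le ((Subgroup.commutator_le_left M M).trans hMK) hFK⟩ (sup_le (Subgroup.commutator_le_left M M) hFM.le)
    have key : ∀ k, M ≤ derivedSeries G k ⊔ F := by
      intro k
      induction k with
      | zero => rw [derivedSeries_zero, top_sup_eq]; exact le_top
      | succ k ih =>
        haveI : (derivedSeries G k).Normal := derivedSeries_normal G k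
        haveI : (derivedSeries G (k + 1)).Normal := derivedSeries_normal G (k + 1)
        refine hW.ge.trans (sup_le ?_ le_sup_right)
        refine Subgroup.commutator_le.mpr fun a ha b hb => ?_
        obtain ⟨a1, ha1, a2, ha2, rfl⟩ := Subgroup.mem_sup_of_normal_right.mp (ih ha)
        obtain ⟨b1, hb1, b2, hb2, rfl⟩ := Subgroup.mem_sup_of_normal_right.mp (ih hb)
        set π := QuotientGroup.mk' (derivedSeries G (k + 1) ⊔ F)
        have hz : ∀ x ∈ F, π x = 1 := fun x hx => (QuotientGroup.eq_one_iff x).mpr (Subgroup.mem_sup_right hx)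
        rw [← QuotientGroup.eq_one_iff]
        show π ⁅a1 * a2, b1 * b2⁆ = 1
        rw [map_commutatorElement, map_mul, map_mul, hz a2 ha2, hz b2 hb2, mul_one, mul_one, ← map_commutatorElement]
        refine (QuotientGroup.eq_one_iff _).mpr (Subgroup.mem_sup_left ?_)
        rw [derivedSeries_succ]
        exact Subgroup.commutator_mem_commutator ha1 hb1
    obtain ⟨n, hn⟩ := hG.solvable
    have := key n
    rw [hn, bot_sup_eq] at this
    exact hFM.not_ge this
  have hact : ∀ U V : Subgroup G, IsChiefFactor U V → U ≤ F → ⁅U, M⁆ ≤ V := fun U V hc hle =>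
    Subgroup.commutator_le.mpr fun u hu m hm => (hMK hm).2 U V hc hle u hu
  haveI : (⁅M, M⁆).Normal := inferInstance
  obtain ⟨k, hk⟩ := iter_bot hact _ ⁅M, M⁆ rfl inferInstance hMM
  have hnil : Group.IsNilpotent ↥M := by
    refine (Subgroup.isNilpotent_iff_lowerCentralSeries M).mpr ⟨k + 1, ?_⟩
    have e : ∀ j, M.lowerCentralSeries (j + 1) = iterCommutator ⁅M, M⁆ M j := by
      intro j
      induction j with
      | zero => rfl
      | succ j ih => rw [Subgroup.lowerCentralSeries_succ, ih]; rfl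
    rw [e, hk]
  exact hFM.not_ge (le_inf (CfsgLib.Core.le_fittingSubgroup hMn hnil) (hMK.trans inf_le_left))

theorem main (hG : Group.IsSolvable G) (N : Subgroup G) [N.Normal] (g : G) :
    (g ∈ (fittingSubgroup ↥N).map N.subtype ↔ g ∈ N ∧ ∀ U V : Subgroup G, (U.Normal ∧ V.Normal ∧ V < U ∧
        ∀ W : Subgroup G, W.Normal → V ≤ W → W ≤ U → W = V ∨ W = U) → ∀ u ∈ U, u * g * u⁻¹ * g⁻¹ ∈ V) ∧
    (g ∈ (fittingSubgroup ↥N).map N.subtype ↔ g ∈ N ∧ ∀ U V : Subgroup G, (U.Normal ∧ V.Normal ∧ V < U ∧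
        ∀ W : Subgroup G, W.Normal → V ≤ W → W ≤ U → W = V ∨ W = U) → U ≤ (fittingSubgroup ↥N).map N.subtype →
        ∀ u ∈ U, u * g * u⁻¹ * g⁻¹ ∈ V) := by
  rw [fitting_normal_eq N]
  haveI hFn : (fittingSubgroup G).Normal := CfsgLib.Core.fittingSubgroup_normal
  have fwd : g ∈ fittingSubgroup G ⊓ N → g ∈ N ∧ ∀ U V : Subgroup G, (U.Normal ∧ V.Normal ∧ V < U ∧
      ∀ W : Subgroup G, W.Normal → V ≤ W → W ≤ U → W = V ∨ W = U) → ∀ u ∈ U, u * g * u⁻¹ * g⁻¹ ∈ V := by
    intro hg
    refine ⟨hg.2, fun U V ⟨h1, h2, h3, h4⟩ u hu => ?_⟩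
    exact commutator_chief_le CfsgLib.Core.isNilpotent_fittingSubgroup ⟨h3, h1, h2, h4⟩
      (Subgroup.commutator_mem_commutator hu hg.1)
  have bwd : (g ∈ N ∧ ∀ U V : Subgroup G, (U.Normal ∧ V.Normal ∧ V < U ∧
      ∀ W : Subgroup G, W.Normal → V ≤ W → W ≤ U → W = V ∨ W = U) → U ≤ fittingSubgroup G ⊓ N →
      ∀ u ∈ U, u * g * u⁻¹ * g⁻¹ ∈ V) → g ∈ fittingSubgroup G ⊓ N := fun ⟨hN, h⟩ =>
    mem_of_trivial hG N hN fun U V ⟨c1, c2, c3, c4⟩ hle u hu => h U V ⟨c2, c3, c1, c4⟩ hle u hu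
  exact ⟨⟨fwd, fun ⟨hN, h⟩ => bwd ⟨hN, fun U V hc _ => h U V hc⟩⟩,
    ⟨fun hg => ⟨(fwd hg).1, fun U V hc _ => (fwd hg).2 U V hc⟩, bwd⟩⟩

end CfsgLib.Solvable.FittingChief
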