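import Cfsg.Prelude.Def_SolvableStructure
import Cfsg.Agent.Lib.Solvable.HallBasic
import Cfsg.Agent.Lib.PLocal.ProductSet
import Cfsg.Agent.Lib.PLocal.SolvablePrimitive
import Cfsg.Agent.Lib.Core

/-! Hall complement systems and system normalizers. -/

set_option autoImplicit false
set_option linter.style.haveILetI false

namespace CfsgLib.Solvable.HallSystem

open Cfsg
open scoped Pointwise

universe u

variable {G : Type u} [Group G] [Finite G]

/-- `H` has index the full `p`-part. -/
def Compl (p : ℕ) (H : Subgroup G) : Prop := H.index = p ^ (Nat.card G).factorization p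

theorem not_dvd_card {p : ℕ} (hp : p.Prime) {H : Subgroup G} (h : Compl p H) : ¬ p ∣ Nat.card H := by
  intro hd
  have h1 : p ^ ((Nat.card G).factorization p + 1) ∣ Nat.card G := by
    rw [pow_succ, ← h, mul_comm H.index]
    exact (mul_dvd_mul_right hd H.index).trans (dvd_of_eq H.card_mul_index)
  exact absurd ((hp.pow_dvd_iff_le_factorization Nat.card_pos.ne').mp h1) (by omega)

theorem card_eq {p : ℕ} (hp : p.Prime) {H : Subgroup G} (h : Compl p H) :
    Nat.card G = Nat.card H * p ^ (Nat.card G).factorization p ∧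
      (Nat.card H).Coprime (p ^ (Nat.card G).factorization p) :=
  ⟨(h ▸ H.card_mul_index).symm, ((hp.coprime_iff_not_dvd.mpr (not_dvd_card hp h)).symm).pow_right _⟩

/-- The index inside a normal subgroup divides the index. -/
theorem relIndex_dvd (H N : Subgroup G) [N.Normal] : H.relIndex N ∣ H.index := by
  have h1 : H.relIndex (H ⊔ N) * (H ⊔ N).index = H.index := Subgroup.relIndex_mul_index le_sup_left
  have h2 : H.relIndex (H ⊔ N) = H.relIndex N := by
    have hc := CfsgLib.PLocal.ProductSet.card_mul_eq H N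
    rw [← Subgroup.mul_normal] at hc
    have e1 := Subgroup.card_mul_index (H.subgroupOf (H ⊔ N))
    rw [Nat.card_congr (Subgroup.subgroupOfEquivOfLe le_sup_left).toEquiv] at e1
    have e2 := Subgroup.card_mul_index (H.subgroupOf N)
    rw [show H.subgroupOf N = (H ⊓ N).subgroupOf N by rw [Subgroup.inf_subgroupOf_right],
      Nat.card_congr (Subgroup.subgroupOfEquivOfLe inf_le_right).toEquiv, Subgroup.inf_subgroupOf_right] at e2
    change Nat.card H * H.relIndex (H ⊔ N) = _ at e1
    change Nat.card ↥(H ⊓ N) * H.relIndex N = _ at e2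
    rw [SetLike.coe_sort_coe, ← e1, ← e2] at hc
    refine Nat.eq_of_mul_eq_mul_left (n := Nat.card H * Nat.card ↥(H ⊓ N))
      (Nat.mul_pos Nat.card_pos Nat.card_pos) ?_
    linarith
  exact ⟨(H ⊔ N).index, by rw [← h2, h1]⟩

/-- Subgroups of coprime index factorise. -/
theorem factor (N : Subgroup G) [N.Normal] (H I : Subgroup G) (hc : H.index.Coprime I.index) {x : G} (hx : x ∈ N) :
    ∃ h ∈ H ⊓ N, ∃ i ∈ I ⊓ N, h * i = x := by
  set A := H ⊓ N with hA
  set B := I ⊓ N with hB
  have hcard : Nat.card ↥N ≤ Nat.card ↥((A : Set G) * (B : Set G)) := by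
    have h1 := CfsgLib.PLocal.ProductSet.card_mul_eq A B
    have hdA : A.relIndex N ∣ H.index := by rw [hA, Subgroup.inf_relIndex_right]; exact relIndex_dvd H N
    have hdB : B.relIndex N ∣ I.index := by rw [hB, Subgroup.inf_relIndex_right]; exact relIndex_dvd I N
    have hcop : (A.relIndex N).Coprime (B.relIndex N) := (hc.coprime_dvd_left hdA).coprime_dvd_right hdB
    have eA : Nat.card A * A.relIndex N = Nat.card N := by
      rw [← Subgroup.relIndex_bot_left, Subgroup.relIndex_mul_relIndex _ _ _ bot_le inf_le_right, Subgroup.relIndex_bot_left]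
    have eB : Nat.card B * B.relIndex N = Nat.card N := by
      rw [← Subgroup.relIndex_bot_left, Subgroup.relIndex_mul_relIndex _ _ _ bot_le inf_le_right, Subgroup.relIndex_bot_left]
    have eAB : Nat.card ↥(A ⊓ B) * (A ⊓ B).relIndex N = Nat.card N := by
      rw [← Subgroup.relIndex_bot_left, Subgroup.relIndex_mul_relIndex _ _ _ bot_le (inf_le_left.trans inf_le_right),
        Subgroup.relIndex_bot_left]
    have hd : A.relIndex N * B.relIndex N ∣ (A ⊓ B).relIndex N :=
      hcop.mul_dvd_of_dvd_of_dvd (Subgroup.relIndex_dvd_of_le_left N inf_le_left)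
        (Subgroup.relIndex_dvd_of_le_left N inf_le_right)
    have hpos : 0 < (A ⊓ B).relIndex N := by
      rcases Nat.eq_zero_or_pos ((A ⊓ B).relIndex N) with h0 | h0
      · rw [h0, mul_zero] at eAB; exact absurd eAB Nat.card_pos.ne
      · exact h0
    have hle := Nat.le_of_dvd hpos hd
    refine Nat.le_of_mul_le_mul_right ?_ (Nat.card_pos (α := ↥(A ⊓ B)))
    rw [h1]
    refine Nat.le_of_mul_le_mul_right ?_ (Nat.mul_pos (Nat.pos_of_ne_zero (fun e => by rw [e, mul_zero] at eA; exact Nat.card_pos.ne eA) : 0 < A.relIndex N)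
      (Nat.pos_of_ne_zero (fun e => by rw [e, mul_zero] at eB; exact Nat.card_pos.ne eB) : 0 < B.relIndex N))
    calc Nat.card N * Nat.card ↥(A ⊓ B) * (A.relIndex N * B.relIndex N)
        ≤ Nat.card N * Nat.card ↥(A ⊓ B) * (A ⊓ B).relIndex N := Nat.mul_le_mul_left _ hle
      _ = Nat.card N * Nat.card N := by rw [mul_assoc, eAB]
      _ = Nat.card A * Nat.card B * (A.relIndex N * B.relIndex N) := by
          rw [mul_mul_mul_comm, eA, eB]
  have hsub : (A : Set G) * (B : Set G) ⊆ (N : Set G) := by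
    rintro _ ⟨a, ha, b, hb, rfl⟩
    exact N.mul_mem ha.2 hb.2
  rw [← SetLike.coe_sort_coe, Nat.card_coe_set_eq, Nat.card_coe_set_eq] at hcard
  have := Set.eq_of_subset_of_ncard_le hsub hcard
  rw [← SetLike.mem_coe, ← this] at hx
  exact hx

/-- The intersection of complements for a finite set of primes. -/
theorem index_iInf (K : Nat.Primes → Subgroup G) (hK : ∀ p : Nat.Primes, Compl (p : ℕ) (K p)) (s : Finset Nat.Primes) :
    (⨅ p ∈ s, K p).index = ∏ p ∈ s, (p : ℕ) ^ (Nat.card G).factorization p := by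
  classical
  induction s using Finset.induction_on with
  | empty => simp
  | insert a s ha ih =>
    rw [Finset.prod_insert ha, Finset.iInf_insert]
    refine le_antisymm (Subgroup.index_inf_le.trans (by rw [ih, hK a])) (Nat.le_of_dvd
      (Nat.pos_of_ne_zero Subgroup.index_ne_zero_of_finite) ?_)
    refine Nat.Coprime.mul_dvd_of_dvd_of_dvd ?_ ?_ ?_
    · refine Nat.Coprime.prod_right fun p hp => Nat.Coprime.pow _ _ ((Nat.coprime_primes a.2 p.2).mpr fun e => ha ?_)
      exact Subtype.ext e ▸ hp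
    · rw [← hK a]; exact Subgroup.index_dvd_of_le inf_le_left
    · rw [← ih]; exact Subgroup.index_dvd_of_le inf_le_right

theorem eq_top {p : Nat.Primes} {H : Subgroup G} (h : Compl (p : ℕ) H) (hp : ¬ (p : ℕ) ∣ Nat.card G) : H = ⊤ := by
  rw [Compl, Nat.factorization_eq_zero_of_not_dvd hp, pow_zero] at h
  exact Subgroup.index_eq_one.mp h

theorem finite_primes (G : Type u) [Group G] [Finite G] : ∃ s : Finset Nat.Primes, ∀ p : Nat.Primes, (p : ℕ) ∣ Nat.card G → p ∈ s := by
  classical
  exact ⟨(Finset.subtype Nat.Prime (Nat.card G).primeFactors : Finset (Subtype Nat.Prime)), fun p hp =>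
    Finset.mem_subtype.mpr (Nat.mem_primeFactors.mpr ⟨p.2, hp, Nat.card_pos.ne'⟩)⟩

theorem compl_conj {p : ℕ} {H : Subgroup G} (g : G) (h : Compl p H) : Compl p (MulAut.conj g • H) := by
  unfold Compl
  rw [HallBasic.smul_eq_map]
  exact (Subgroup.index_map_equiv H (MulAut.conj g)).trans h

/-- Complement systems with members conjugate under a normal subgroup are conjugate under it. -/
theorem exists_conj (N : Subgroup G) [hN : N.Normal] (K L : Nat.Primes → Subgroup G)
    (hL : ∀ p : Nat.Primes, Compl (p : ℕ) (L p))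
    (h : ∀ p : Nat.Primes, ∀ g ∈ N, ∃ x ∈ N, MulAut.conj x • (MulAut.conj g • K p) = L p) :
    ∃ g ∈ N, ∀ p : Nat.Primes, (p : ℕ) ∣ Nat.card G → MulAut.conj g • K p = L p := by
  classical
  obtain ⟨s, hs⟩ := finite_primes G
  suffices ∀ t : Finset Nat.Primes, ∃ g ∈ N, ∀ p ∈ t, MulAut.conj g • K p = L p by
    obtain ⟨g, hg, hgs⟩ := this s
    exact ⟨g, hg, fun p hp => hgs p (hs p hp)⟩
  intro t
  induction t using Finset.induction_on with
  | empty => exact ⟨1, one_mem _, by simp⟩
  | @insert a t ha ih =>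
    obtain ⟨g, hg, hgt⟩ := ih
    obtain ⟨x, hx, hxa⟩ := h a g hg
    have hco : (L a).index.Coprime (⨅ p ∈ t, L p).index := by
      rw [index_iInf L hL t, hL a]
      refine Nat.Coprime.prod_right fun p hp => Nat.Coprime.pow _ _ ((Nat.coprime_primes a.2 p.2).mpr fun e => ha ?_)
      exact Subtype.ext e ▸ hp
    obtain ⟨l, hl, i, hi, rfl⟩ := factor N (L a) (⨅ p ∈ t, L p) hco hx
    refine ⟨i * g, mul_mem hi.2 hg, fun p hp => ?_⟩
    rw [map_mul, mul_smul]
    rcases Finset.mem_insert.mp hp with rfl | hp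
    · rw [map_mul, mul_smul] at hxa
      rw [← eq_inv_smul_iff] at hxa
      rw [hxa, ← map_inv]
      exact Subgroup.conj_smul_eq_self_of_mem (inv_mem hl.1)
    · rw [hgt p hp]
      exact Subgroup.conj_smul_eq_self_of_mem ((Subgroup.mem_iInf.mp (Subgroup.mem_iInf.mp hi.1 p)) hp)

theorem all_conj [Group.IsSolvable G] (K L : Nat.Primes → Subgroup G) (hK : IsComplementSystem K)
    (hL : IsComplementSystem L) : ∃ g : G, ∀ p : Nat.Primes, MulAut.conj g • K p = L p := by
  obtain ⟨g, -, hg⟩ := exists_conj ⊤ K L hL (fun p g _ => by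
    obtain ⟨h1, h2⟩ := card_eq p.2 (compl_conj g (hK p))
    obtain ⟨h3, -⟩ := card_eq p.2 (hL p)
    obtain ⟨x, hx⟩ := HallBasic.exists_conj h1 h2 rfl
      (Nat.eq_of_mul_eq_mul_right (pow_pos p.2.pos _) (h3.symm.trans h1))
    exact ⟨x, Subgroup.mem_top x, hx⟩)
  refine ⟨g, fun p => ?_⟩
  by_cases hp : (p : ℕ) ∣ Nat.card G
  · exact hg p hp
  · rw [eq_top (hK p) hp, eq_top (hL p) hp, Subgroup.conj_smul_eq_self_of_mem (Subgroup.mem_top g)]

theorem mem_of_normalizes {p : ℕ} (hp : p.Prime) {H : Subgroup G} (hH : Compl p H) {x : G}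
    (hx : x ∈ Subgroup.normalizer (H : Set G)) (hxo : ¬ p ∣ orderOf x) : x ∈ H := by
  set X := H ⊔ Subgroup.zpowers x with hX
  have hle : Subgroup.zpowers x ≤ Subgroup.normalizer (H : Set G) := Subgroup.zpowers_le.mpr hx
  have hcard : Nat.card X ∣ Nat.card H * orderOf x := by
    have h1 := CfsgLib.PLocal.ProductSet.card_mul_eq H (Subgroup.zpowers x)
    rw [← Subgroup.coe_mul_of_right_le_normalizer_left _ _ hle, Nat.card_zpowers] at h1
    exact Dvd.intro _ h1
  have hnd : ¬ p ∣ Nat.card X := fun h => by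
    rcases hp.dvd_mul.mp (h.trans hcard) with h1 | h1
    · exact not_dvd_card hp hH h1
    · exact hxo h1
  have heq : H = X := by
    refine Subgroup.eq_of_le_of_card_ge le_sup_left (Nat.le_of_dvd Nat.card_pos ?_)
    refine ((hp.coprime_iff_not_dvd.mpr hnd).symm.pow_right ((Nat.card G).factorization p)).dvd_of_dvd_mul_right ?_
    rw [← (card_eq hp hH).1]
    exact Subgroup.card_subgroup_dvd_card X
  exact heq.symm ▸ Subgroup.mem_sup_right (Subgroup.mem_zpowers x)

theorem isNilpotent (K : Nat.Primes → Subgroup G) (hK : IsComplementSystem K) :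
    Group.IsNilpotent (systemNormalizer K) := by
  classical
  refine ((Group.isNilpotent_of_finite_tfae (G := systemNormalizer K)).out 0 3 rfl rfl).mpr fun q hq S => ?_
  have hq' : q.Prime := hq.out
  obtain ⟨s, hs⟩ := finite_primes G
  set qq : Nat.Primes := ⟨q, hq'⟩
  set I := ⨅ p ∈ s.erase qq, K p with hI
  have hIq : IsPGroup q I := by
    refine IsPGroup.iff_orderOf.mpr fun y => ⟨_, Nat.eq_prime_pow_of_unique_prime_dvd (orderOf_pos y).ne'
      fun {r} hr hrd => ?_⟩
    by_contra hrq
    have hrd' : r ∣ Nat.card G := hrd.trans ((_root_.orderOf_dvd_natCard y).trans (Subgroup.card_subgroup_dvd_card I))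
    have hle : I ≤ K ⟨r, hr⟩ := iInf₂_le _ (Finset.mem_erase.mpr ⟨fun e => hrq (congrArg Subtype.val e), hs _ hrd'⟩)
    exact not_dvd_card hr (hK ⟨r, hr⟩) (hrd.trans ((_root_.orderOf_dvd_natCard y).trans (Subgroup.card_dvd_of_le hle)))
  have hnorm : (I.subgroupOf (systemNormalizer K)).Normal := by
    refine ⟨fun y hy g => Subgroup.mem_iInf.mpr fun p => Subgroup.mem_iInf.mpr fun hp => ?_⟩
    have := Subgroup.mem_iInf.mp g.2 p
    exact (Subgroup.mem_normalizer_iff.mp this _).mp (Subgroup.mem_iInf.mp (Subgroup.mem_iInf.mp hy p) hp)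
  have hle : ∀ T : Sylow q (systemNormalizer K), (T : Subgroup _) = I.subgroupOf (systemNormalizer K) := fun T => by
    refine (T.3 (hIq.comap_subtype) fun y hy => Subgroup.mem_iInf.mpr fun p => Subgroup.mem_iInf.mpr fun hp => ?_).symm
    obtain ⟨j, hj⟩ := IsPGroup.iff_orderOf.mp T.2 ⟨y, hy⟩
    rw [Subgroup.orderOf_mk, ← Subgroup.orderOf_coe] at hj
    refine mem_of_normalizes p.2 (hK p) (Subgroup.mem_iInf.mp y.2 p) fun h => ?_
    rw [Subgroup.subtype_apply, hj] at h
    exact (Finset.mem_erase.mp hp).1 (Subtype.ext ((Nat.prime_dvd_prime_iff_eq p.2 hq').mp (p.2.dvd_of_dvd_pow h)))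
  rw [hle S]
  exact hnorm

theorem map_compl {H : Type u} [Group H] [Finite H] (f : G →* H) (hf : Function.Surjective f) {p : ℕ} (hp : p.Prime)
    {A : Subgroup G} (hA : Compl p A) : Compl p (A.map f) := by
  have h1 : (A.map f).index ∣ p ^ (Nat.card G).factorization p := hA ▸ Subgroup.index_map_dvd A hf
  obtain ⟨k, -, hk⟩ := (Nat.dvd_prime_pow hp).mp h1
  have hnd : ¬ p ∣ Nat.card (A.map f) := fun h => not_dvd_card hp hA (h.trans (Subgroup.card_map_dvd A f))
  show (A.map f).index = _
  rw [← (A.map f).card_mul_index, hk, Nat.factorization_mul Nat.card_pos.ne' (pow_ne_zero _ hp.ne_zero),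
    Finsupp.add_apply, Nat.factorization_eq_zero_of_not_dvd hnd, hp.factorization_pow, Finsupp.single_eq_same, zero_add]

theorem quotient [Group.IsSolvable G] (K : Nat.Primes → Subgroup G) (hK : IsComplementSystem K) (N : Subgroup G)
    [hN : N.Normal] : IsComplementSystem (fun p => (K p).map (QuotientGroup.mk' N)) ∧
      systemNormalizer (fun p => (K p).map (QuotientGroup.mk' N)) = (systemNormalizer K).map (QuotientGroup.mk' N) := by
  have hπ := QuotientGroup.mk'_surjective N
  refine ⟨fun p => map_compl _ hπ p.2 (hK p), le_antisymm (fun y hy => ?_) ?_⟩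
  · obtain ⟨g, rfl⟩ := hπ y
    obtain ⟨n, hn, hnK⟩ := exists_conj N (fun p => MulAut.conj g • K p) K hK fun p m hm => by
      set X := (K p).map (QuotientGroup.mk' N) |>.comap (QuotientGroup.mk' N) with hX
      have hKX : K p ≤ X := Subgroup.le_comap_map _ _
      have hgX : ∀ z, z ∈ X → g * z * g⁻¹ ∈ X := fun z hz => by
        show QuotientGroup.mk' N (g * z * g⁻¹) ∈ (K p).map (QuotientGroup.mk' N)
        rw [map_mul, map_mul, map_inv]
        exact (Subgroup.mem_normalizer_iff.mp (Subgroup.mem_iInf.mp hy p) _).mp hz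
      set K1 := MulAut.conj m • (MulAut.conj g • K p) with hK1
      have hK1X : K1 ≤ X := by
        rintro _ ⟨_, ⟨z, hz, rfl⟩, rfl⟩
        show m * (g * z * g⁻¹) * m⁻¹ ∈ X
        have hmX : m ∈ X := by
          show QuotientGroup.mk' N m ∈ (K p).map (QuotientGroup.mk' N)
          rw [show QuotientGroup.mk' N m = 1 from (QuotientGroup.eq_one_iff m).mpr hm]
          exact one_mem _
        exact mul_mem (mul_mem hmX (hgX z (hKX hz))) (inv_mem hmX)
      obtain ⟨c1, c2⟩ := card_eq p.2 (hK p)
      obtain ⟨d1, d2⟩ := card_eq p.2 (compl_conj m (compl_conj g (hK p)))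
      have hcd : Nat.card K1 = Nat.card (K p) := Nat.eq_of_mul_eq_mul_right (pow_pos p.2.pos _) (d1.symm.trans c1)
      obtain ⟨j, -, hj⟩ : ∃ j ≤ (Nat.card G).factorization p, ((K p).subgroupOf X).index = (p : ℕ) ^ j := by
        refine (Nat.dvd_prime_pow p.2).mp ?_
        rw [← hK p]
        exact Dvd.intro _ (Subgroup.relIndex_mul_index hKX)
      have hX' : Nat.card X = Nat.card (K p) * (p : ℕ) ^ j := by
        rw [← ((K p).subgroupOf X).card_mul_index, hj, Nat.card_congr (Subgroup.subgroupOfEquivOfLe hKX).toEquiv]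
      obtain ⟨x, hx⟩ := HallBasic.exists_conj (G := X) hX'
        (((p.2.coprime_iff_not_dvd.mpr (not_dvd_card p.2 (hK p))).symm).pow_right j)
        (H := K1.subgroupOf X) (K := (K p).subgroupOf X)
        (by rw [Nat.card_congr (Subgroup.subgroupOfEquivOfLe hK1X).toEquiv, hcd])
        (by rw [Nat.card_congr (Subgroup.subgroupOfEquivOfLe hKX).toEquiv])
      have hxK : MulAut.conj (x : G) • K1 = K p := by
        have h5 := congrArg (Subgroup.map X.subtype) hx
        rw [HallBasic.smul_eq_map, Subgroup.map_map, Subgroup.map_subgroupOf_eq_of_le hKX] at h5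
        rw [HallBasic.smul_eq_map, ← h5]
        conv_lhs => rw [← Subgroup.map_subgroupOf_eq_of_le hK1X, Subgroup.map_map]
        rfl
      obtain ⟨a, ha, b, hb, hab⟩ : ∃ a ∈ K p, ∃ b ∈ N, a * b = x := by
        have hxX : (x : G) ∈ X := x.2
        obtain ⟨a, ha, hae⟩ := hxX
        exact ⟨a, ha, a⁻¹ * x, (QuotientGroup.eq).mp hae, by group⟩
      refine ⟨b, hb, ?_⟩
      rw [← hab, map_mul, mul_smul, ← eq_inv_smul_iff, ← map_inv, Subgroup.conj_smul_eq_self_of_mem (inv_mem ha)] at hxK
      exact hxK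
    refine ⟨n * g, Subgroup.mem_iInf.mpr fun p => ?_, ?_⟩
    · by_cases hp : (p : ℕ) ∣ Nat.card G
      · have := hnK p hp
        rw [← mul_smul, ← map_mul, HallBasic.smul_eq_map] at this
        exact Subgroup.mem_normalizer_iff_map_conj_eq.mpr this
      · rw [eq_top (hK p) hp]
        rw [Subgroup.normalizer_eq_top ⊤]; trivial
    · rw [map_mul, show QuotientGroup.mk' N n = 1 from (QuotientGroup.eq_one_iff n).mpr hn, one_mul]
  · rintro _ ⟨g, hg, rfl⟩
    exact Subgroup.mem_iInf.mpr fun p => Subgroup.le_normalizer_map _ ⟨g, Subgroup.mem_iInf.mp hg p, rfl⟩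

theorem normalClosure_eq_top [Group.IsSolvable G] (K : Nat.Primes → Subgroup G) (hK : IsComplementSystem K) :
    Subgroup.normalClosure ((systemNormalizer K : Subgroup G) : Set G) = ⊤ := by
  set M := Subgroup.normalClosure ((systemNormalizer K : Subgroup G) : Set G)
  by_contra hM
  haveI : Nontrivial (G ⧸ M) := QuotientGroup.nontrivial_iff.mpr hM
  haveI : Group.IsSolvable (G ⧸ M) := Group.isSolvable_of_surjective (QuotientGroup.mk'_surjective M)
  set A := (commutator (G ⧸ M)).comap (QuotientGroup.mk' M) with hA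
  have hAt : A ≠ ⊤ := fun e => (Group.IsSolvable.commutator_lt_top_of_nontrivial (G := G ⧸ M)).ne (by
    rw [← Subgroup.map_comap_eq_self_of_surjective (QuotientGroup.mk'_surjective M) (commutator (G ⧸ M)), ← hA, e,
      Subgroup.map_top_of_surjective _ (QuotientGroup.mk'_surjective M)])
  haveI : A.Normal := inferInstance
  have hMA : M ≤ A := fun x hx => by
    show QuotientGroup.mk' M x ∈ commutator (G ⧸ M)
    rw [show QuotientGroup.mk' M x = 1 from (QuotientGroup.eq_one_iff x).mpr hx]
    exact one_mem _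
  have habA : ∀ a b : G ⧸ A, a * b = b * a := by
    intro a b
    obtain ⟨a, rfl⟩ := QuotientGroup.mk'_surjective A a
    obtain ⟨b, rfl⟩ := QuotientGroup.mk'_surjective A b
    rw [← map_mul, ← map_mul]
    refine QuotientGroup.eq.mpr ?_
    show QuotientGroup.mk' M ((a * b)⁻¹ * (b * a)) ∈ commutator (G ⧸ M)
    have := Subgroup.commutator_mem_commutator (Subgroup.mem_top (QuotientGroup.mk' M b)⁻¹) (Subgroup.mem_top (QuotientGroup.mk' M a)⁻¹)
    rw [commutatorElement_def, inv_inv, inv_inv] at this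
    rw [commutator_def]
    simpa [mul_assoc] using this
  have hq := (quotient K hK A).2
  have htop : systemNormalizer (fun p => (K p).map (QuotientGroup.mk' A)) = ⊤ := by
    refine (Subgroup.eq_top_iff' _).mpr fun y => Subgroup.mem_iInf.mpr fun p => ?_
    refine Subgroup.mem_normalizer_fintype fun z hz => ?_
    show y * z * y⁻¹ ∈ _
    rw [habA y z, mul_inv_cancel_right]
    exact hz
  rw [htop] at hq
  have hbot : (systemNormalizer K).map (QuotientGroup.mk' A) = ⊥ := by
    rw [Subgroup.map_eq_bot_iff, QuotientGroup.ker_mk']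
    exact Subgroup.subset_normalClosure.trans hMA
  rw [hbot] at hq
  haveI : Nontrivial (G ⧸ A) := QuotientGroup.nontrivial_iff.mpr hAt
  exact top_ne_bot hq

end CfsgLib.Solvable.HallSystem
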