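import Cfsg.Agent.Lib.Solvable.HallBasic

/-! Kegel's lemma on two subgroups permuting with all conjugates. -/

set_option autoImplicit false
set_option linter.style.haveILetI false

namespace CfsgLib.Solvable.KegelPair

open scoped Pointwise

universe u

variable {G : Type u} [Group G] [Finite G]

/-- `A * C` is a subgroup different from the whole group. -/
def Proper (A C : Subgroup G) : Prop := ∃ S : Subgroup G, S ≠ ⊤ ∧ (S : Set G) = (A : Set G) * (C : Set G)

theorem sup_mul_set {A A' C : Subgroup G} (h : ∃ S : Subgroup G, (S : Set G) = (A : Set G) * (C : Set G))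
    (h' : ∃ S : Subgroup G, (S : Set G) = (A' : Set G) * (C : Set G)) :
    ∃ S : Subgroup G, (S : Set G) = ((A ⊔ A' : Subgroup G) : Set G) * (C : Set G) := by
  classical
  have key : ∀ (A₀ : Subgroup G), (∃ S : Subgroup G, (S : Set G) = (A₀ : Set G) * (C : Set G)) → A₀ ≤ A ⊔ A' →
      ∀ a ∈ A₀, ∀ c ∈ C, c * a ∈ ((A ⊔ A' : Subgroup G) : Set G) * (C : Set G) := by
    rintro A₀ ⟨S, hS⟩ hle a ha c hc
    have ha' : a ∈ S := by rw [← SetLike.mem_coe, hS]; exact ⟨a, ha, 1, C.one_mem, mul_one a⟩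
    have hc' : c ∈ S := by rw [← SetLike.mem_coe, hS]; exact ⟨1, A₀.one_mem, c, hc, one_mul c⟩
    have := S.mul_mem hc' ha'
    rw [← SetLike.mem_coe, hS] at this
    obtain ⟨x, hx, y, hy, he⟩ := this
    exact ⟨x, hle hx, y, hy, he⟩
  have hall : ∀ x ∈ A ⊔ A', (∀ c ∈ C, c * x ∈ ((A ⊔ A' : Subgroup G) : Set G) * (C : Set G)) ∧
      ∀ c ∈ C, c * x⁻¹ ∈ ((A ⊔ A' : Subgroup G) : Set G) * (C : Set G) := by
    intro x hx
    rw [Subgroup.sup_eq_closure] at hx
    induction hx using Subgroup.closure_induction with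
    | mem y hy =>
      rcases hy with hy | hy
      · exact ⟨key A h le_sup_left y hy, key A h le_sup_left y⁻¹ (A.inv_mem hy)⟩
      · exact ⟨key A' h' le_sup_right y hy, key A' h' le_sup_right y⁻¹ (A'.inv_mem hy)⟩
    | one => exact ⟨fun c hc => ⟨1, one_mem _, c, hc, by simp⟩, fun c hc => ⟨1, one_mem _, c, hc, by simp⟩⟩
    | mul y z _ _ iy iz =>
      refine ⟨fun c hc => ?_, fun c hc => ?_⟩
      · obtain ⟨y', hy', c', hc', e1⟩ := iy.1 c hc
        obtain ⟨z', hz', c'', hc'', e2⟩ := iz.1 c' hc'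
        exact ⟨y' * z', Subgroup.mul_mem _ hy' hz', c'', hc'', by
          show y' * z' * c'' = c * (y * z)
          rw [mul_assoc, show z' * c'' = c' * z from e2, ← mul_assoc, show y' * c' = c * y from e1, mul_assoc]⟩
      · obtain ⟨z', hz', c', hc', e1⟩ := iz.2 c hc
        obtain ⟨y', hy', c'', hc'', e2⟩ := iy.2 c' hc'
        exact ⟨z' * y', Subgroup.mul_mem _ hz' hy', c'', hc'', by
          show z' * y' * c'' = c * (y * z)⁻¹
          rw [mul_assoc, show y' * c'' = c' * y⁻¹ from e2, ← mul_assoc, show z' * c' = c * z⁻¹ from e1, mul_inv_rev,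
            mul_assoc]⟩
    | inv y _ iy => exact ⟨iy.2, by simpa using iy.1⟩
  refine ⟨⟨⟨⟨((A ⊔ A' : Subgroup G) : Set G) * (C : Set G), ?_⟩, ⟨1, one_mem _, 1, C.one_mem, mul_one 1⟩⟩, ?_⟩, rfl⟩
  · rintro _ _ ⟨x, hx, c, hc, rfl⟩ ⟨z, hz, d, hd, rfl⟩
    obtain ⟨z', hz', c', hc', e⟩ := (hall z hz).1 c hc
    refine ⟨x * z', Subgroup.mul_mem _ hx hz', c' * d, C.mul_mem hc' hd, ?_⟩
    show x * z' * (c' * d) = x * c * (z * d)
    rw [mul_assoc, ← mul_assoc z', show z' * c' = c * z from e]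
    group
  · rintro _ ⟨x, hx, c, hc, rfl⟩
    obtain ⟨x', hx', c', hc', e⟩ := (hall x hx).2 c⁻¹ (C.inv_mem hc)
    exact ⟨x', hx', c', hc', by show x' * c' = (x * c)⁻¹; rw [show x' * c' = c⁻¹ * x⁻¹ from e, mul_inv_rev]⟩

theorem exists_normal (A B : Subgroup G) (h : ∀ x : G, Proper A (MulAut.conj x • B)) :
    ∃ N : Subgroup G, N.Normal ∧ N ≠ ⊤ ∧ (A ≤ N ∨ B ≤ N) := by
  classical
  obtain ⟨A', hAA', hA'⟩ := Set.Finite.exists_le_maximal
    (s := {A' : Subgroup G | A ≤ A' ∧ ∀ x : G, Proper A' (MulAut.conj x • B)}) (Set.toFinite _) (a := A) ⟨le_rfl, h⟩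
  obtain ⟨-, hper⟩ := hA'.prop
  by_cases hN : ∀ x : G, MulAut.conj x • B ≤ Subgroup.normalizer (A' : Set G)
  · by_cases hn : Subgroup.normalizer (A' : Set G) = ⊤
    · refine ⟨A', Subgroup.normalizer_eq_top_iff.mp hn, fun e => ?_, Or.inl hAA'⟩
      obtain ⟨S, hS, hSe⟩ := hper 1
      refine hS ((Subgroup.eq_top_iff' S).mpr fun g => ?_)
      rw [← SetLike.mem_coe, hSe]
      exact ⟨g, e ▸ Subgroup.mem_top g, 1, one_mem _, mul_one g⟩
    · refine ⟨Subgroup.normalClosure (B : Set G), inferInstance, fun e => hn (top_le_iff.mp (e ▸ ?_)), Or.inr Subgroup.subset_normalClosure⟩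
      rw [Subgroup.normalClosure, Subgroup.closure_le]
      intro y hy
      obtain ⟨b, hb, hy⟩ := Group.mem_conjugatesOfSet_iff.mp hy
      obtain ⟨c, rfl⟩ := isConj_iff.mp hy
      exact hN c (Subgroup.smul_mem_pointwise_smul b (MulAut.conj c) B hb)
  · exfalso
    push_neg at hN
    obtain ⟨x, hx⟩ := hN
    obtain ⟨b, hb, hbN⟩ := SetLike.not_le_iff_exists.mp hx
    obtain ⟨S, hS, hSe⟩ := hper x
    have hAS : A' ≤ S := fun a ha => by
      rw [← SetLike.mem_coe, hSe]; exact ⟨a, ha, 1, one_mem _, mul_one a⟩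
    have hBS : MulAut.conj x • B ≤ S := fun a ha => by
      rw [← SetLike.mem_coe, hSe]; exact ⟨1, one_mem _, a, ha, one_mul a⟩
    set X := A' ⊔ MulAut.conj b • A' with hX
    have hAX : A' < X := by
      refine lt_of_le_of_ne le_sup_left fun e => hbN ?_
      refine Subgroup.mem_normalizer_iff_map_conj_eq.mpr (Subgroup.eq_of_le_of_card_ge ?_
        (Nat.card_congr (A'.equivMapOfInjective _ (MulAut.conj b).injective).toEquiv).le)
      refine (HallBasic.smul_eq_map b A').ge.trans ?_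
      exact le_sup_right.trans e.ge
    have hXS : X ≤ S := sup_le hAS (by
      rw [← Subgroup.conj_smul_eq_self_of_mem (hBS hb)]
      exact Subgroup.pointwise_smul_le_pointwise_smul_iff.mpr hAS)
    refine hAX.not_ge (hA'.le_of_ge ⟨hAA'.trans hAX.le, fun y => ?_⟩ hAX.le)
    have hsub : ∀ y : G, ∃ T : Subgroup G, (T : Set G) = (X : Set G) * ((MulAut.conj y • B : Subgroup G) : Set G) := by
      intro y
      obtain ⟨T1, -, hT1⟩ := hper y
      obtain ⟨T2, -, hT2⟩ := hper (b⁻¹ * y)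
      refine sup_mul_set ⟨T1, hT1⟩ ⟨MulAut.conj b • T2, ?_⟩
      rw [Subgroup.coe_pointwise_smul, hT2, smul_mul', ← Subgroup.coe_pointwise_smul, ← Subgroup.coe_pointwise_smul,
        ← mul_smul, ← map_mul, mul_inv_cancel_left]
    obtain ⟨T, hT⟩ := hsub y
    refine ⟨T, fun e => hS ?_, hT⟩
    refine (Subgroup.eq_top_iff' S).mpr fun g => ?_
    have hcov : ∀ g : G, ∃ w ∈ S, ∃ c ∈ MulAut.conj y • B, g = w * c := fun g => by
      have : g ∈ (T : Set G) := by rw [e]; trivial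
      rw [hT] at this
      obtain ⟨w, hw, c, hc, he⟩ := this
      exact ⟨w, hXS hw, c, hc, he.symm⟩
    obtain ⟨w, hw, c, hc, he⟩ := hcov (x * y⁻¹)
    have hyS : MulAut.conj y • B ≤ S := by
      have h1 : MulAut.conj w • (MulAut.conj y • B) = MulAut.conj x • B := by
        conv_rhs => rw [show x = w * c * y by rw [← he]; group, map_mul, map_mul, mul_smul, mul_smul,
          Subgroup.conj_smul_eq_self_of_mem hc]
      have h2 : MulAut.conj w • (MulAut.conj y • B) ≤ MulAut.conj w • S := by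
        rw [h1, Subgroup.conj_smul_eq_self_of_mem hw]; exact hBS
      exact Subgroup.pointwise_smul_le_pointwise_smul_iff.mp h2
    obtain ⟨w', hw', c', hc', rfl⟩ := hcov g
    exact S.mul_mem hw' (hyS hc')

end CfsgLib.Solvable.KegelPair
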