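import Cfsg.Agent.Lib.Solvable.ZipperFamily
import Cfsg.Agent.Lib.GroupB.Cores

/-! Matsuyama's lemma. -/

set_option autoImplicit false
set_option linter.style.haveILetI false

namespace CfsgLib.Solvable.Matsuyama

open scoped Pointwise

universe u

variable {G : Type u} [Group G] [Finite G]

theorem exists_sylow (p : ℕ) [Fact p.Prime] (Z Y : Subgroup G)
    (h : ∀ g : G, IsPGroup p ↥(⨆ y ∈ Y, MulAut.conj (y * g) • Z)) :
    ∃ P : Sylow p G, Y ≤ Subgroup.normalizer
      ((sSup {B : Subgroup G | (∃ g : G, B = MulAut.conj g • Z) ∧ B ≤ (P : Subgroup G)} : Subgroup G) : Set G) := by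
  classical
  let C : Subgroup G → Set (Subgroup G) := fun W => {B : Subgroup G | (∃ g : G, B = MulAut.conj g • Z) ∧ B ≤ W}
  obtain ⟨W, hW⟩ := Set.Finite.exists_maximal
    (s := {W : Subgroup G | IsPGroup p W ∧ Y ≤ Subgroup.normalizer (W : Set G) ∧ W ≤ sSup (C W)})
    (Set.toFinite _) ⟨⊥, IsPGroup.of_bot, by rw [Subgroup.normalizer_eq_top ⊥]; exact le_top, bot_le⟩
  obtain ⟨hWp, hWY, hWC⟩ := hW.prop
  have hWeq : sSup (C W) = W := le_antisymm (sSup_le fun B hB => hB.2) hWC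
  obtain ⟨P, hWP⟩ := hWp.exists_le_sylow
  refine ⟨P, ?_⟩
  by_cases hall : ∀ B ∈ C (P : Subgroup G), B ≤ W
  · have : sSup (C (P : Subgroup G)) = W :=
      le_antisymm (sSup_le hall) (hWC.trans (sSup_le_sSup fun B hB => ⟨hB.1, hB.2.trans hWP⟩))
    show Y ≤ Subgroup.normalizer ((sSup (C (P : Subgroup G)) : Subgroup G) : Set G)
    rwa [this]
  · exfalso
    push_neg at hall
    haveI : Group.IsNilpotent (P : Subgroup G) := P.2.isNilpotent
    obtain ⟨B, hB, hBW, hBn⟩ := ZipperFamily.exists_next (P : Subgroup G) (C (P : Subgroup G)) (C W)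
      (fun B hB => ⟨hB.2, CfsgLib.GroupB.Subnormal.of_isNilpotent _⟩)
      (fun B hB c hc => by
        obtain ⟨⟨g, hg⟩, hle⟩ := hB
        refine ⟨⟨c * g, by rw [hg, map_mul, mul_smul]⟩, ?_⟩
        rw [← ZipperFamily.conj_self hc]; exact Subgroup.pointwise_smul_le_pointwise_smul_iff.mpr hle)
      (fun B hB => ⟨hB.1, hB.2.trans hWP⟩) (by rwa [hWeq])
    rw [hWeq] at hBW hBn
    obtain ⟨⟨g, rfl⟩, -⟩ := hB
    set J := ⨆ y ∈ Y, MulAut.conj (y * g) • Z with hJ
    have hJN : J ≤ Subgroup.normalizer (W : Set G) := by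
      refine iSup₂_le fun y hy => ?_
      rw [map_mul, mul_smul, ← ZipperFamily.conj_self (hWY hy)]
      exact Subgroup.pointwise_smul_le_pointwise_smul_iff.mpr hBn
    have hJY : Y ≤ Subgroup.normalizer (J : Set G) := by
      intro z hz
      refine Subgroup.mem_normalizer_iff_map_conj_eq.mpr (Subgroup.eq_of_le_of_card_ge ?_
        (Nat.card_congr (J.equivMapOfInjective _ (MulAut.conj z).injective).toEquiv).le)
      rw [hJ, Subgroup.map_iSup]
      refine iSup_le fun y => ?_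
      rw [Subgroup.map_iSup]
      refine iSup_le fun hy => ?_
      refine (HallBasic.smul_eq_map z _).ge.trans ?_
      rw [← mul_smul, ← map_mul, ← mul_assoc]
      exact le_iSup₂ (f := fun y _ => MulAut.conj (y * g) • Z) (z * y) (mul_mem hz hy)
    have hle : MulAut.conj g • Z ≤ J := by
      have := le_iSup₂ (f := fun y (_ : y ∈ Y) => MulAut.conj (y * g) • Z) 1 (one_mem Y)
      rwa [one_mul] at this
    have hJWp : IsPGroup p ↥(W ⊔ J : Subgroup G) := IsPGroup.to_sup_of_normal_left' hWp (h g) hJN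
    refine hBW (hle.trans (le_sup_right.trans (hW.le_of_ge ⟨hJWp, ?_, ?_⟩ (le_sup_left : W ≤ W ⊔ J))))
    · intro z hz
      refine Subgroup.mem_normalizer_iff_map_conj_eq.mpr ?_
      show (W ⊔ J).map (MulAut.conj z).toMonoidHom = _
      rw [Subgroup.map_sup]
      exact congrArg₂ (· ⊔ ·) (Subgroup.mem_normalizer_iff_map_conj_eq.mp (hWY hz))
        (Subgroup.mem_normalizer_iff_map_conj_eq.mp (hJY hz))
    · refine sup_le (hWC.trans (sSup_le_sSup fun B hB => ⟨hB.1, hB.2.trans le_sup_left⟩)) (iSup₂_le fun y hy => ?_)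
      exact le_sSup ⟨⟨y * g, rfl⟩, (le_iSup₂ (f := fun y (_ : y ∈ Y) => MulAut.conj (y * g) • Z) y hy).trans le_sup_right⟩

end CfsgLib.Solvable.Matsuyama
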