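import Mathlib
import Cfsg.Agent.Lib.PLocal.SolvablePrimitive
import Cfsg.Agent.Lib.PLocal.ProductSet

/-! Wielandt's three solvable subgroups theorem. -/

set_option autoImplicit false
open scoped Pointwise

namespace CfsgLib.Solvable

universe u

/-- Subgroups of coprime index factorise the group. -/
theorem factor_of_coprime_index {G : Type*} [Group G] [Finite G] {H K : Subgroup G}
    (h : H.index.Coprime K.index) (g : G) : ∃ a ∈ H, ∃ b ∈ K, g = a * b := by
  have hidx : H.index * K.index ∣ (H ⊓ K).index :=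
    h.mul_dvd_of_dvd_of_dvd (Subgroup.index_dvd_of_le inf_le_left) (Subgroup.index_dvd_of_le inf_le_right)
  have hle : Nat.card G ≤ Nat.card ↥((H : Set G) * (K : Set G)) := by
    have e := CfsgLib.PLocal.ProductSet.card_mul_eq H K
    have hH := H.card_mul_index
    have hK := K.card_mul_index
    have hI := (H ⊓ K).card_mul_index
    have hpos : 0 < Nat.card ↥(H ⊓ K : Subgroup G) := Nat.card_pos
    have hle' : H.index * K.index ≤ (H ⊓ K).index :=
      Nat.le_of_dvd (Nat.pos_of_ne_zero Subgroup.index_ne_zero_of_finite) hidx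
    have hposH : 0 < H.index * K.index := Nat.mul_pos (Nat.pos_of_ne_zero Subgroup.index_ne_zero_of_finite)
      (Nat.pos_of_ne_zero Subgroup.index_ne_zero_of_finite)
    refine Nat.le_of_mul_le_mul_right ?_ (Nat.mul_pos hpos hposH)
    calc Nat.card G * (Nat.card ↥(H ⊓ K : Subgroup G) * (H.index * K.index))
        ≤ Nat.card G * (Nat.card ↥(H ⊓ K : Subgroup G) * (H ⊓ K).index) := by gcongr
      _ = (Nat.card H * H.index) * (Nat.card K * K.index) := by rw [hI, hH, hK]
      _ = (Nat.card H * Nat.card K) * (H.index * K.index) := by ring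
      _ = _ := by rw [← e]; ring
  have huniv : (H : Set G) * (K : Set G) = Set.univ :=
    Set.eq_univ_of_forall fun x => by
      have := Set.eq_of_subset_of_ncard_le (Set.subset_univ ((H : Set G) * (K : Set G)))
        (by rw [Set.ncard_univ, ← Nat.card_coe_set_eq]; exact hle) (Set.toFinite _)
      rw [this]; trivial
  obtain ⟨a, ha, b, hb, e⟩ := Set.mem_mul.mp (huniv ▸ Set.mem_univ g : g ∈ (H : Set G) * (K : Set G))
  exact ⟨a, ha, b, hb, e.symm⟩

theorem wielandt_aux (n : ℕ) : ∀ (G : Type u) [Group G] [Finite G], Nat.card G = n →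
    ∀ H₁ H₂ H₃ : Subgroup G, Group.IsSolvable H₁ → Group.IsSolvable H₂ → Group.IsSolvable H₃ →
    H₁.index.Coprime H₂.index → H₁.index.Coprime H₃.index → H₂.index.Coprime H₃.index → Group.IsSolvable G := by
  induction n using Nat.strong_induction_on with
  | _ n ih =>
  intro G _ _ hn H₁ H₂ H₃ s1 s2 s3 c12 c13 c23
  classical
  by_cases hH1 : H₁ = ⊥
  · subst hH1
    rw [Subgroup.index_bot] at c12
    have h2 : H₂ = ⊤ := Subgroup.index_eq_one.mp
      (Nat.eq_one_of_dvd_coprimes c12 (Subgroup.index_dvd_card H₂) dvd_rfl)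
    subst h2
    exact Group.isSolvable_of_surjective (f := (Subgroup.topEquiv (G := G)).toMonoidHom) Subgroup.topEquiv.surjective
  have hne : (⊤ : Subgroup H₁) ≠ ⊥ := fun h => hH1 (by
    rw [← Subgroup.card_eq_one, ← Subgroup.card_top (G := H₁), h, Subgroup.card_bot])
  obtain ⟨M, -, ⟨hMn, hM0⟩, hMmin⟩ := exists_minimal_le_of_wellFoundedLT
    (fun N : Subgroup H₁ => N.Normal ∧ N ≠ ⊥) ⊤ ⟨inferInstance, hne⟩
  have := hMn
  have := s1
  obtain ⟨-, p, d, hp, hd, hcard⟩ := CfsgLib.PLocal.minNormal_solvable M hM0 (fun K hK hKN =>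
    or_iff_not_imp_left.mpr fun hK0 => le_antisymm hKN (hMmin ⟨hK, hK0⟩ hKN))
  set A := M.map H₁.subtype with hA
  have hAp : IsPGroup p A := (IsPGroup.of_card hcard).map _
  have hA0 : A ≠ ⊥ := fun h => hM0 ((Subgroup.map_eq_bot_iff_of_injective _ H₁.subtype_injective).mp h)
  obtain ⟨K, hK, hKs, cK⟩ : ∃ K : Subgroup G, ¬ p ∣ K.index ∧ Group.IsSolvable K ∧ H₁.index.Coprime K.index := by
    by_cases hp2 : p ∣ H₂.index
    · exact ⟨H₃, fun h => hp.not_dvd_one (c23 ▸ Nat.dvd_gcd hp2 h), s3, c13⟩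
    · exact ⟨H₂, hp2, s2, c12⟩
  have := Fact.mk hp
  obtain ⟨P⟩ : Nonempty (Sylow p K) := inferInstance
  obtain ⟨T, hT⟩ := hAp.exists_le_sylow
  have hPK : ∃ U : Sylow p G, (U : Subgroup G) ≤ K := by
    obtain ⟨U, hU⟩ := (P.2.map K.subtype).exists_le_sylow
    have hle : (P : Subgroup K).map K.subtype = U := by
      refine Subgroup.eq_of_le_of_card_ge hU ?_
      rw [Subgroup.card_subtype, U.card_eq_multiplicity, P.card_eq_multiplicity, ← K.card_mul_index,
        Nat.factorization_mul Nat.card_pos.ne' Subgroup.index_ne_zero_of_finite]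
      simp [Nat.factorization_eq_zero_of_not_dvd hK]
    exact ⟨U, hle ▸ Subgroup.map_subtype_le _⟩
  obtain ⟨U, hUK⟩ := hPK
  obtain ⟨g, hg⟩ := MulAction.exists_smul_eq G T U
  have hAg : ∀ x ∈ A, g * x * g⁻¹ ∈ K := fun x hx => hUK (by
    rw [← hg, Sylow.coe_subgroup_smul]
    exact Subgroup.smul_mem_pointwise_smul x (MulAut.conj g) _ (hT hx))
  have hconjA : ∀ a ∈ H₁, ∀ x ∈ A, a * x * a⁻¹ ∈ A := by
    rintro a ha _ ⟨m, hm, rfl⟩
    exact ⟨_, hMn.conj_mem m hm ⟨a, ha⟩, rfl⟩
  have hall : ∀ x : G, ∀ m ∈ A, x * m * x⁻¹ ∈ K := by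
    have hAK : A ≤ K := by
      intro x hx
      obtain ⟨a, ha, b, hb, e⟩ := factor_of_coprime_index cK g⁻¹
      have h1 := hAg _ (hconjA a ha x hx)
      have hg' : g * a = b⁻¹ := by rw [eq_inv_iff_mul_eq_one, mul_assoc, ← e, mul_inv_cancel]
      have h2 : g * (a * x * a⁻¹) * g⁻¹ = b⁻¹ * x * b := by
        calc g * (a * x * a⁻¹) * g⁻¹ = (g * a) * x * (g * a)⁻¹ := by group
          _ = _ := by rw [hg', inv_inv]
      rw [h2] at h1
      have := K.mul_mem (K.mul_mem hb h1) (K.inv_mem hb)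
      simpa [mul_assoc] using this
    intro x m hm
    obtain ⟨a, ha, b, hb, e⟩ := factor_of_coprime_index cK x⁻¹
    have hx : x = b⁻¹ * a⁻¹ := by rw [← mul_inv_rev, ← e, inv_inv]
    have h1 := hAK (hconjA a⁻¹ (H₁.inv_mem ha) m hm)
    have := K.mul_mem (K.mul_mem (K.inv_mem hb) h1) hb
    rw [hx]
    simpa [mul_assoc] using this
  set N := Subgroup.normalClosure (A : Set G) with hN
  have hNK : N ≤ K := by
    rw [hN, Subgroup.normalClosure, Subgroup.closure_le]
    intro y hy
    obtain ⟨m, hm, hy⟩ := Group.mem_conjugatesOfSet_iff.mp hy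
    obtain ⟨c, hc⟩ := isConj_iff.mp hy
    exact hc ▸ hall c m hm
  have hN0 : N ≠ ⊥ := fun h => hA0 (le_bot_iff.mp (h ▸ Subgroup.subset_normalClosure))
  have := hKs
  have hNs : Group.IsSolvable N := Group.isSolvable_of_isSolvable_injective (f := Subgroup.inclusion hNK) (Subgroup.inclusion_injective hNK)
  have hq : Group.IsSolvable (G ⧸ N) := by
    have h1 := N.card_eq_card_quotient_mul_card_subgroup
    have h2 : 1 < Nat.card N := by
      have := mt Subgroup.card_eq_one.mp hN0
      have := Nat.card_pos (α := N)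
      omega
    have hlt : Nat.card (G ⧸ N) < n := by rw [← hn, h1]; exact lt_mul_of_one_lt_right Nat.card_pos h2
    have hmap : ∀ X : Subgroup G, Group.IsSolvable X → Group.IsSolvable (X.map (QuotientGroup.mk' N)) :=
      fun X _ => Group.isSolvable_of_surjective (f := (QuotientGroup.mk' N).subgroupMap X) (MonoidHom.subgroupMap_surjective _ _)
    have hidx : ∀ X : Subgroup G, (X.map (QuotientGroup.mk' N)).index ∣ X.index := fun X =>
      Subgroup.index_map_dvd X (QuotientGroup.mk'_surjective N)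
    exact ih _ hlt (G ⧸ N) rfl _ _ _ (hmap _ s1) (hmap _ s2) (hmap _ s3)
      ((c12.coprime_dvd_left (hidx _)).coprime_dvd_right (hidx _))
      ((c13.coprime_dvd_left (hidx _)).coprime_dvd_right (hidx _))
      ((c23.coprime_dvd_left (hidx _)).coprime_dvd_right (hidx _))
  exact Group.isSolvable_of_ker_le_range N.subtype (QuotientGroup.mk' N) (by simp)

/-- **Wielandt.** Three solvable subgroups of pairwise coprime indices make the group solvable. -/
theorem wielandt {G : Type*} [Group G] [Finite G] (H₁ H₂ H₃ : Subgroup G) (s1 : Group.IsSolvable H₁)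
    (s2 : Group.IsSolvable H₂) (s3 : Group.IsSolvable H₃) (c12 : H₁.index.Coprime H₂.index)
    (c13 : H₁.index.Coprime H₃.index) (c23 : H₂.index.Coprime H₃.index) : Group.IsSolvable G :=
  wielandt_aux _ G rfl H₁ H₂ H₃ s1 s2 s3 c12 c13 c23

end CfsgLib.Solvable
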