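import Cfsg.Agent.Lib.Solvable.HallBasic
import Cfsg.Agent.Lib.Solvable.ThreeSubgroups
import Cfsg.Agent.S0144
import Cfsg.Agent.Lib.PLocal.ProductSet
import Mathlib.GroupTheory.Sylow

/-! Sylow systems and Hall's converse. -/

set_option autoImplicit false

namespace CfsgLib.Solvable.SylowSystem

universe u

/-- Hall's converse: `p`-complements for all `p` force solvability. -/
theorem isSolvable_of_complements (k : ℕ) : ∀ (G : Type u) [Group G] [Finite G],
    (Nat.card G).primeFactors.card ≤ k →
    (∀ p : ℕ, p.Prime → ∃ H : Subgroup G, H.index = p ^ (Nat.card G).factorization p) →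
    Group.IsSolvable G := by
  induction k using Nat.strong_induction_on with
  | _ k ih =>
  intro G _ _ hk h
  classical
  have hG0 : Nat.card G ≠ 0 := Nat.card_pos.ne'
  by_cases hsmall : (Nat.card G).primeFactors.card ≤ 2
  · obtain ⟨p, q, hp, hq, hsub⟩ : ∃ p q : ℕ, p.Prime ∧ q.Prime ∧ (Nat.card G).primeFactors ⊆ {p, q} := by
      rcases Nat.lt_or_ge (Nat.card G).primeFactors.card 1 with h0 | h1
      · exact ⟨2, 3, Nat.prime_two, Nat.prime_three, by
          rw [Finset.card_eq_zero.mp (by omega : (Nat.card G).primeFactors.card = 0)]; simp⟩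
      · rcases Nat.lt_or_ge (Nat.card G).primeFactors.card 2 with h2 | h2
        · obtain ⟨a, ha⟩ := Finset.card_eq_one.mp (by omega : (Nat.card G).primeFactors.card = 1)
          exact ⟨a, a, Nat.prime_of_mem_primeFactors (by rw [ha]; simp),
            Nat.prime_of_mem_primeFactors (by rw [ha]; simp), by rw [ha]; simp⟩
        · obtain ⟨a, b, -, hab⟩ := Finset.card_eq_two.mp (by omega : (Nat.card G).primeFactors.card = 2)
          exact ⟨a, b, Nat.prime_of_mem_primeFactors (by rw [hab]; simp),
            Nat.prime_of_mem_primeFactors (by rw [hab]; simp), by rw [hab]⟩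
    have hcard : ∃ a b : ℕ, Nat.card G = p ^ a * q ^ b := by
      by_cases hpq : p = q
      · refine ⟨(Nat.card G).primeFactorsList.length, 0, ?_⟩
        rw [pow_zero, mul_one]
        exact Nat.eq_prime_pow_of_unique_prime_dvd hG0 fun {d} hd hdvd => by
          have := hsub (Nat.mem_primeFactors.mpr ⟨hd, hdvd, hG0⟩)
          simp [← hpq] at this
          exact this
      · refine ⟨(Nat.card G).factorization p, (Nat.card G).factorization q, ?_⟩
        conv_lhs => rw [← Nat.prod_factorization_pow_eq_self hG0]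
        rw [Finsupp.prod_of_support_subset (s := {p, q}) _ (by rw [Nat.support_factorization]; exact hsub)
          _ (fun _ _ => pow_zero _), Finset.prod_pair hpq]
    obtain ⟨a, b, hab⟩ := hcard
    exact Cfsg.Agent.S0144.result p q a b hp hq hab
  obtain ⟨p, q, r, hp, hq, hr, hpq, hpr, hqr⟩ : ∃ p q r, p ∈ (Nat.card G).primeFactors ∧
      q ∈ (Nat.card G).primeFactors ∧ r ∈ (Nat.card G).primeFactors ∧ p ≠ q ∧ p ≠ r ∧ q ≠ r := by
    obtain ⟨p, q, r, hp, hq, hr, h⟩ := Finset.two_lt_card_iff.mp (not_le.mp hsmall)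
    exact ⟨p, q, r, hp, hq, hr, h⟩
  have key : ∀ s ∈ (Nat.card G).primeFactors, ∀ H : Subgroup G,
      H.index = s ^ (Nat.card G).factorization s → Group.IsSolvable H := by
    intro s hs H hH
    have hsp := Nat.prime_of_mem_primeFactors hs
    have hns : ¬ s ∣ Nat.card H := by
      intro hd
      have h1 : s ^ ((Nat.card G).factorization s + 1) ∣ Nat.card G := by
        rw [pow_succ, ← hH, mul_comm]
        exact (mul_dvd_mul_right hd H.index).trans (dvd_of_eq H.card_mul_index)
      exact absurd ((hsp.pow_dvd_iff_le_factorization hG0).mp h1) (by omega)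
    refine ih ((Nat.card H).primeFactors.card) ?_ H le_rfl fun l hl => ?_
    · refine lt_of_lt_of_le (Finset.card_lt_card ?_) hk
      rw [Finset.ssubset_iff_of_subset (Nat.primeFactors_mono (Subgroup.card_subgroup_dvd_card H) hG0)]
      exact ⟨s, hs, fun h' => hns (Nat.dvd_of_mem_primeFactors h')⟩
    · by_cases hls : l = s
      · subst hls
        exact ⟨⊤, by rw [Subgroup.index_top, Nat.factorization_eq_zero_of_not_dvd hns, pow_zero]⟩
      · obtain ⟨K, hK⟩ := h l hl
        refine ⟨K.subgroupOf H, ?_⟩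
        have hdvd : (H ⊓ K).index = H.index * K.index := by
          refine le_antisymm Subgroup.index_inf_le (Nat.le_of_dvd (Nat.pos_of_ne_zero Subgroup.index_ne_zero_of_finite) ?_)
          refine Nat.Coprime.mul_dvd_of_dvd_of_dvd ?_ (Subgroup.index_dvd_of_le inf_le_left)
            (Subgroup.index_dvd_of_le inf_le_right)
          rw [hH, hK]
          exact Nat.Coprime.pow _ _ ((Nat.coprime_primes hsp hl).mpr (Ne.symm hls))
        have h1 : K.relIndex H * H.index = (H ⊓ K).index := by
          rw [← Subgroup.inf_relIndex_left, Subgroup.relIndex_mul_index inf_le_left]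
        rw [hdvd, mul_comm H.index] at h1
        have h2 : K.relIndex H = K.index :=
          Nat.eq_of_mul_eq_mul_right (Nat.pos_of_ne_zero Subgroup.index_ne_zero_of_finite) h1
        show K.relIndex H = _
        rw [h2, hK, ← H.card_mul_index, hH, Nat.factorization_mul Nat.card_pos.ne' (pow_ne_zero _ hsp.ne_zero),
          Finsupp.add_apply, hsp.factorization_pow, Finsupp.single_eq_of_ne hls, add_zero]
  obtain ⟨A, hA⟩ := h p (Nat.prime_of_mem_primeFactors hp)
  obtain ⟨B, hB⟩ := h q (Nat.prime_of_mem_primeFactors hq)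
  obtain ⟨C, hC⟩ := h r (Nat.prime_of_mem_primeFactors hr)
  have hcop : ∀ {a b : ℕ}, a ∈ (Nat.card G).primeFactors → b ∈ (Nat.card G).primeFactors → a ≠ b →
      (a ^ (Nat.card G).factorization a).Coprime (b ^ (Nat.card G).factorization b) := fun ha hb hab =>
    Nat.Coprime.pow _ _ ((Nat.coprime_primes (Nat.prime_of_mem_primeFactors ha)
      (Nat.prime_of_mem_primeFactors hb)).mpr hab)
  exact CfsgLib.Solvable.wielandt A B C (key p hp A hA) (key q hq B hB) (key r hr C hC)
    (hA ▸ hB ▸ hcop hp hq hpq) (hA ▸ hC ▸ hcop hp hr hpr) (hB ▸ hC ▸ hcop hq hr hqr)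

open scoped Pointwise

variable {G : Type u} [Group G] [Finite G]

/-- Products of pairwise permutable Sylow subgroups. -/
theorem exists_product (S : (p : Nat.Primes) → Sylow (p : ℕ) G)
    (hS : ∀ p q : Nat.Primes, (S p : Set G) * (S q : Set G) = (S q : Set G) * (S p : Set G))
    (s : Finset Nat.Primes) : ∃ T : Subgroup G,
      (∀ p : Nat.Primes, (T : Set G) * (S p : Set G) = (S p : Set G) * (T : Set G)) ∧
      (∀ p ∈ s, (S p : Subgroup G) ≤ T) ∧
      Nat.card T ∣ ∏ p ∈ s, Nat.card (S p : Subgroup G) := by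
  classical
  induction s using Finset.induction_on with
  | empty =>
    exact ⟨⊥, fun p => by simp, by simp, by simp⟩
  | insert a s ha ih =>
    obtain ⟨T, hT, hle, hc⟩ := ih
    have hcoe : (((S a : Subgroup G) ⊔ T : Subgroup G) : Set G) = (S a : Set G) * (T : Set G) := by
      let M : Subgroup G :=
        { carrier := (S a : Set G) * (T : Set G)
          one_mem' := ⟨1, one_mem _, 1, one_mem _, one_mul 1⟩
          mul_mem' := by
            intro x y hx hy
            have h := Set.mul_mem_mul hx hy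
            rw [mul_assoc, ← mul_assoc (T : Set G), hT a, ← mul_assoc, ← mul_assoc,
              coe_mul_coe, mul_assoc, coe_mul_coe] at h
            exact h
          inv_mem' := by
            intro x hx
            have h : x⁻¹ ∈ ((S a : Set G) * (T : Set G))⁻¹ := Set.inv_mem_inv.mpr hx
            rw [mul_inv_rev, inv_coe_set, inv_coe_set] at h
            rw [← hT a]; exact h }
      have hM : (S a : Subgroup G) ⊔ T = M := by
        refine le_antisymm (sup_le (fun x hx => ⟨x, hx, 1, one_mem _, mul_one x⟩)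
          (fun x hx => ⟨1, one_mem _, x, hx, one_mul x⟩)) ?_
        rintro _ ⟨x, hx, y, hy, rfl⟩
        exact mul_mem (Subgroup.mem_sup_left hx) (Subgroup.mem_sup_right hy)
      rw [hM]; rfl
    refine ⟨(S a : Subgroup G) ⊔ T, fun p => ?_, fun p hp => ?_, ?_⟩
    · rw [hcoe, mul_assoc, hT p, ← mul_assoc, hS a p, mul_assoc]
    · rcases Finset.mem_insert.mp hp with rfl | hp
      · exact le_sup_left
      · exact (hle p hp).trans le_sup_right
    · haveI : Fact (a : ℕ).Prime := ⟨a.2⟩
      rw [Finset.prod_insert ha]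
      refine dvd_trans ?_ (mul_dvd_mul_left _ hc)
      have hco : (Nat.card (S a : Subgroup G)).Coprime (Nat.card T) := by
        rw [(S a).card_eq_multiplicity]
        refine Nat.Coprime.pow_left _ ?_
        refine Nat.Coprime.coprime_dvd_right hc (Nat.Coprime.prod_right fun p hp => ?_)
        haveI : Fact (p : ℕ).Prime := ⟨p.2⟩
        rw [(S p).card_eq_multiplicity]
        exact Nat.Coprime.pow_right _ ((Nat.coprime_primes a.2 p.2).mpr
          fun e => ha (Subtype.ext e ▸ hp))
      have hd := Subgroup.disjoint_of_coprime_natCard hco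
      have h1 : Nat.card ↥((S a : Set G) * (T : Set G)) = Nat.card (S a : Subgroup G) * Nat.card T := by
        have e := CfsgLib.PLocal.ProductSet.card_mul_eq (S a : Subgroup G) T
        rw [disjoint_iff.mp hd, Subgroup.card_bot, mul_one] at e
        exact e
      rw [← h1, ← hcoe]
      rfl

/-- the prime divisors of `n`, as elements of `Nat.Primes` -/
def primeSet (n : ℕ) : Finset Nat.Primes :=
  (Finset.subtype Nat.Prime n.primeFactors : Finset (Subtype Nat.Prime))

theorem mem_primeSet {n : ℕ} {p : Nat.Primes} : p ∈ primeSet n ↔ (p : ℕ) ∈ n.primeFactors :=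
  Finset.mem_subtype

theorem prod_primeSet (n : ℕ) (hn : n ≠ 0) :
    ∏ p ∈ primeSet n, (p : ℕ) ^ n.factorization p = n := by
  conv_rhs => rw [← Nat.prod_factorization_pow_eq_self hn]
  rw [Finsupp.prod, Nat.support_factorization]
  exact Finset.prod_subtype_of_mem (fun l => l ^ n.factorization l)
    fun l hl => Nat.prime_of_mem_primeFactors hl

/-- A Sylow system gives solvability. -/
theorem isSolvable_of_system (S : (p : Nat.Primes) → Sylow (p : ℕ) G)
    (hS : ∀ p q : Nat.Primes, (S p : Set G) * (S q : Set G) = (S q : Set G) * (S p : Set G)) :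
    Group.IsSolvable G := by
  classical
  refine isSolvable_of_complements _ G le_rfl fun p hp => ?_
  obtain ⟨T, -, hle, hc⟩ := exists_product S hS
    ((primeSet (Nat.card G)).erase ⟨p, hp⟩)
  refine ⟨T, ?_⟩
  have hG0 : Nat.card G ≠ 0 := Nat.card_pos.ne'
  haveI := Fact.mk hp
  have hprod : ∀ q : Nat.Primes, Nat.card (S q : Subgroup G) = (q : ℕ) ^ (Nat.card G).factorization q :=
    fun q => by haveI : Fact (q : ℕ).Prime := ⟨q.2⟩; exact (S q).card_eq_multiplicity
  have hi := T.card_mul_index
  have h1 : ∀ l : ℕ, l.Prime → l ≠ p → (Nat.card G).factorization l ≤ (Nat.card T).factorization l := by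
    intro l hl hlp
    by_cases hlG : l ∣ Nat.card G
    · have hmem : (⟨l, hl⟩ : Nat.Primes) ∈ (primeSet (Nat.card G)).erase ⟨p, hp⟩ := by
        refine Finset.mem_erase.mpr ⟨fun e => hlp (congrArg Subtype.val e), ?_⟩
        exact mem_primeSet.mpr (Nat.mem_primeFactors.mpr ⟨hl, hlG, hG0⟩)
      refine (hl.pow_dvd_iff_le_factorization Nat.card_pos.ne').mp ?_
      rw [← hprod ⟨l, hl⟩]
      exact Subgroup.card_dvd_of_le (hle _ hmem)
    · rw [Nat.factorization_eq_zero_of_not_dvd hlG]; exact Nat.zero_le _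
  have hpT : ¬ p ∣ Nat.card T := by
    intro hd
    have h2 := hd.trans hc
    obtain ⟨q, hq, hpq⟩ := (Nat.prime_iff.mp hp).exists_mem_finset_dvd h2
    rw [hprod] at hpq
    have := (Nat.prime_dvd_prime_iff_eq hp q.2).mp (hp.dvd_of_dvd_pow hpq)
    exact (Finset.mem_erase.mp hq).1 (Subtype.ext this.symm)
  refine Nat.eq_of_factorization_eq Subgroup.index_ne_zero_of_finite (pow_ne_zero _ hp.ne_zero) fun l => ?_
  have hf : (Nat.card G).factorization l = (Nat.card T).factorization l + T.index.factorization l := by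
    rw [← hi, Nat.factorization_mul Nat.card_pos.ne' Subgroup.index_ne_zero_of_finite]; rfl
  rw [hp.factorization_pow]
  by_cases hlp : l = p
  · subst hlp
    rw [Finsupp.single_eq_same, hf, Nat.factorization_eq_zero_of_not_dvd hpT, zero_add]
  · rw [Finsupp.single_eq_of_ne hlp]
    by_cases hl : l.Prime
    · have := h1 l hl hlp
      omega
    · exact Nat.factorization_eq_zero_of_not_prime _ hl

open Cfsg CfsgLib.GroupB

/-- Existence of Sylow systems. -/
theorem exists_system [Group.IsSolvable G] : ∃ S : (p : Nat.Primes) → Sylow (p : ℕ) G,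
    ∀ p q : Nat.Primes, (S p : Set G) * (S q : Set G) = (S q : Set G) * (S p : Set G) := by
  classical
  set P := primeSet (Nat.card G) with hP
  have hG0 : Nat.card G ≠ 0 := Nat.card_pos.ne'
  have hex : ∀ p : Nat.Primes, ∃ K : Subgroup G, K.index = (p : ℕ) ^ (Nat.card G).factorization p := by
    intro p
    obtain ⟨K, hK⟩ := HallBasic.exists_card (G := G)
      ((Nat.ordProj_mul_ordCompl_eq_self (Nat.card G) p).symm.trans (mul_comm _ _))
      ((Nat.coprime_ordCompl p.2 hG0).pow_left _).symm
    refine ⟨K, Nat.eq_of_mul_eq_mul_left (Nat.card_pos (α := K)) ?_⟩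
    rw [K.card_mul_index, hK, mul_comm]
    exact (Nat.ordProj_mul_ordCompl_eq_self (Nat.card G) p).symm
  choose K hK using hex
  have hmain : ∀ s : Finset Nat.Primes, (s.inf K).index = ∏ p ∈ s, (p : ℕ) ^ (Nat.card G).factorization p := by
    intro s
    induction s using Finset.induction_on with
    | empty => simp
    | insert a s ha ih =>
      rw [Finset.inf_insert, Finset.prod_insert ha]
      refine le_antisymm (Subgroup.index_inf_le.trans (by rw [hK, ih]))
        (Nat.le_of_dvd (Nat.pos_of_ne_zero Subgroup.index_ne_zero_of_finite) ?_)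
      refine Nat.Coprime.mul_dvd_of_dvd_of_dvd (Nat.Coprime.prod_right fun q hq => ?_) ?_ ?_
      · exact Nat.Coprime.pow _ _ ((Nat.coprime_primes a.2 q.2).mpr fun e => ha (Subtype.ext e ▸ hq))
      · rw [← hK a]; exact Subgroup.index_dvd_of_le inf_le_left
      · rw [← ih]; exact Subgroup.index_dvd_of_le inf_le_right
  have hfull : ∏ p ∈ P, (p : ℕ) ^ (Nat.card G).factorization p = Nat.card G :=
    prod_primeSet _ Nat.card_pos.ne'
  have hsub : ∀ s : Finset Nat.Primes, s ⊆ P →
      Nat.card (↥((P \ s).inf K)) = ∏ p ∈ s, (p : ℕ) ^ (Nat.card G).factorization p := by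
    intro s hs
    refine Nat.eq_of_mul_eq_mul_right (Nat.pos_of_ne_zero (Subgroup.index_ne_zero_of_finite (H := (P \ s).inf K))) ?_
    rw [Subgroup.card_mul_index, hmain, mul_comm, Finset.prod_sdiff hs, hfull]
  have hsyl : ∀ p : Nat.Primes, ∃ Q : Sylow (p : ℕ) G,
      (p ∈ P → (Q : Subgroup G) = (P.erase p).inf K) ∧ (p ∉ P → (Q : Subgroup G) = ⊥) := by
    intro p
    haveI : Fact (p : ℕ).Prime := ⟨p.2⟩
    by_cases hp : p ∈ P
    · refine ⟨Sylow.ofCard ((P.erase p).inf K) ?_, fun _ => rfl, fun h => absurd hp h⟩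
      rw [Finset.erase_eq, hsub {p} (Finset.singleton_subset_iff.mpr hp), Finset.prod_singleton]
    · refine ⟨default, fun h => absurd h hp, fun _ => Subgroup.eq_bot_of_card_eq _ ?_⟩
      rw [(default : Sylow (p : ℕ) G).card_eq_multiplicity, Nat.factorization_eq_zero_of_not_dvd ?_, pow_zero]
      exact fun h => hp (mem_primeSet.mpr (Nat.mem_primeFactors.mpr ⟨p.2, h, hG0⟩))
  choose S hSin hSout using hsyl
  refine ⟨S, fun p q => ?_⟩
  by_cases hp : p ∈ P; swap
  · have h1 : (S p : Set G) = {1} := by
      show ((S p : Subgroup G) : Set G) = _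
      rw [hSout p hp, Subgroup.coe_bot]
    rw [h1]; simp
  by_cases hq : q ∈ P; swap
  · have h1 : (S q : Set G) = {1} := by
      show ((S q : Subgroup G) : Set G) = _
      rw [hSout q hq, Subgroup.coe_bot]
    rw [h1]; simp
  by_cases hpq : p = q
  · rw [hpq]
  set T := (P \ {p, q}).inf K with hT
  have hTcard : Nat.card T = Nat.card (S p : Subgroup G) * Nat.card (S q : Subgroup G) := by
    haveI : Fact (p : ℕ).Prime := ⟨p.2⟩
    haveI : Fact (q : ℕ).Prime := ⟨q.2⟩
    rw [hT, hsub _ (Finset.insert_subset hp (Finset.singleton_subset_iff.mpr hq)), Finset.prod_pair hpq,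
      (S p).card_eq_multiplicity, (S q).card_eq_multiplicity]
  have hle : ∀ r : Nat.Primes, r ∈ P → (r = p ∨ r = q) → (S r : Subgroup G) ≤ T := by
    intro r hr hor
    rw [hSin r hr]
    refine Finset.inf_mono fun l hl => ?_
    rw [Finset.mem_sdiff] at hl
    refine Finset.mem_erase.mpr ⟨fun e => hl.2 ?_, hl.1⟩
    rw [e]
    rcases hor with rfl | rfl <;> simp
  have hco : (Nat.card (S p : Subgroup G)).Coprime (Nat.card (S q : Subgroup G)) := by
    haveI : Fact (p : ℕ).Prime := ⟨p.2⟩
    haveI : Fact (q : ℕ).Prime := ⟨q.2⟩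
    rw [(S p).card_eq_multiplicity, (S q).card_eq_multiplicity]
    exact Nat.Coprime.pow _ _ ((Nat.coprime_primes p.2 q.2).mpr fun e => hpq (Subtype.ext e))
  have hprod : ∀ A B : Subgroup G, A ≤ T → B ≤ T → (Nat.card A).Coprime (Nat.card B) →
      Nat.card T = Nat.card A * Nat.card B → (A : Set G) * (B : Set G) = (T : Set G) := by
    intro A B hA hB h hcard
    have e := CfsgLib.PLocal.ProductSet.card_mul_eq A B
    rw [disjoint_iff.mp (Subgroup.disjoint_of_coprime_natCard h), Subgroup.card_bot, mul_one] at e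
    refine Set.eq_of_subset_of_ncard_le ?_ ?_ (Set.toFinite _)
    · rintro _ ⟨x, hx, y, hy, rfl⟩; exact mul_mem (hA hx) (hB hy)
    · rw [← Nat.card_coe_set_eq, ← Nat.card_coe_set_eq, e]; exact hcard.le
  exact (hprod _ _ (hle p hp (Or.inl rfl)) (hle q hq (Or.inr rfl)) hco hTcard).trans
    (hprod _ _ (hle q hq (Or.inr rfl)) (hle p hp (Or.inl rfl)) hco.symm (hTcard.trans (mul_comm _ _))).symm

end CfsgLib.Solvable.SylowSystem
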