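import Cfsg.Agent.Lib.PLocal.SolvablePrimitive
import Cfsg.Agent.Lib.PLocal.ProductSet

/-! Three solvable subgroups with two factorisations. -/

set_option autoImplicit false
open scoped Pointwise

namespace CfsgLib.Solvable.ThreeFactor

universe u

theorem factor_aux (n : ℕ) : ∀ (G : Type u) [Group G] [Finite G], Nat.card G = n →
    ∀ H₁ H₂ H₃ : Subgroup G, Group.IsSolvable H₁ → Group.IsSolvable H₂ → Group.IsSolvable H₃ →
    (∀ g : G, ∃ x ∈ H₁, ∃ y ∈ H₂, g = x * y) → (∀ g : G, ∃ x ∈ H₁, ∃ y ∈ H₃, g = x * y) → H₂.index.Coprime H₃.index → Group.IsSolvable G := by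
  induction n using Nat.strong_induction_on with
  | _ n ih =>
  intro G _ _ hn H₁ H₂ H₃ s1 s2 s3 c12 c13 c23
  classical
  by_cases hH1 : H₁ = ⊥
  · subst hH1
    have h2 : H₂ = ⊤ := (Subgroup.eq_top_iff' _).mpr fun g => by
      obtain ⟨x, hx, y, hy, rfl⟩ := c12 g
      rw [Subgroup.mem_bot] at hx
      simpa [hx] using hy
    subst h2
    exact Group.isSolvable_of_surjective (f := (Subgroup.topEquiv (G := G)).toMonoidHom) Subgroup.topEquiv.surjective
  have hne : (⊤ : Subgroup H₁) ≠ ⊥ := fun h => hH1 (by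
    rw [← Subgroup.card_eq_one, ← Subgroup.card_top (G := H₁), h, Subgroup.card_bot])
  obtain ⟨M, -, ⟨hMn, hM0⟩, hMmin⟩ := exists_minimal_le_of_wellFoundedLT
    (fun N : Subgroup H₁ => N.Normal ∧ N ≠ ⊥) ⊤ ⟨inferInstance, hne⟩
  have := hMn
  have := s1
  obtain ⟨-, p, d, hp, hd, hcard⟩ := CfsgLib.PLocal.minNormal_solvable M hM0 (fun K hK hKN =>
    or_iff_not_imp_left.mpr fun hK0 => le_antisymm hKN (hMmin ⟨hK, hK0⟩ hKN))
  set A := M.map H₁.subtype with hA
  have hAp : IsPGroup p A := (IsPGroup.of_card hcard).map _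
  have hA0 : A ≠ ⊥ := fun h => hM0 ((Subgroup.map_eq_bot_iff_of_injective _ H₁.subtype_injective).mp h)
  obtain ⟨K, hK, hKs, cK⟩ : ∃ K : Subgroup G, ¬ p ∣ K.index ∧ Group.IsSolvable K ∧ ∀ g : G, ∃ x ∈ H₁, ∃ y ∈ K, g = x * y := by
    by_cases hp2 : p ∣ H₂.index
    · exact ⟨H₃, fun h => hp.not_dvd_one (c23 ▸ Nat.dvd_gcd hp2 h), s3, c13⟩
    · exact ⟨H₂, hp2, s2, c12⟩
  have := Fact.mk hp
  obtain ⟨P⟩ : Nonempty (Sylow p K) := inferInstance
  obtain ⟨T, hT⟩ := hAp.exists_le_sylow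
  have hPK : ∃ U : Sylow p G, (U : Subgroup G) ≤ K := by
    obtain ⟨U, hU⟩ := (P.2.map K.subtype).exists_le_sylow
    have hle : (P : Subgroup K).map K.subtype = U := by
      refine Subgroup.eq_of_le_of_card_ge hU ?_
      rw [Subgroup.card_subtype, U.card_eq_multiplicity, P.card_eq_multiplicity, ← K.card_mul_index,
        Nat.factorization_mul Nat.card_pos.ne' Subgroup.index_ne_zero_of_finite]
      simp [Nat.factorization_eq_zero_of_not_dvd hK]
    exact ⟨U, hle ▸ Subgroup.map_subtype_le _⟩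
  obtain ⟨U, hUK⟩ := hPK
  obtain ⟨g, hg⟩ := MulAction.exists_smul_eq G T U
  have hAg : ∀ x ∈ A, g * x * g⁻¹ ∈ K := fun x hx => hUK (by
    rw [← hg, Sylow.coe_subgroup_smul]
    exact Subgroup.smul_mem_pointwise_smul x (MulAut.conj g) _ (hT hx))
  have hconjA : ∀ a ∈ H₁, ∀ x ∈ A, a * x * a⁻¹ ∈ A := by
    rintro a ha _ ⟨m, hm, rfl⟩
    exact ⟨_, hMn.conj_mem m hm ⟨a, ha⟩, rfl⟩
  have hall : ∀ x : G, ∀ m ∈ A, x * m * x⁻¹ ∈ K := by
    have hAK : A ≤ K := by
      intro x hx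
      obtain ⟨a, ha, b, hb, e⟩ := cK g⁻¹
      have h1 := hAg _ (hconjA a ha x hx)
      have hg' : g * a = b⁻¹ := by rw [eq_inv_iff_mul_eq_one, mul_assoc, ← e, mul_inv_cancel]
      have h2 : g * (a * x * a⁻¹) * g⁻¹ = b⁻¹ * x * b := by
        calc g * (a * x * a⁻¹) * g⁻¹ = (g * a) * x * (g * a)⁻¹ := by group
          _ = _ := by rw [hg', inv_inv]
      rw [h2] at h1
      have := K.mul_mem (K.mul_mem hb h1) (K.inv_mem hb)
      simpa [mul_assoc] using this
    intro x m hm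
    obtain ⟨a, ha, b, hb, e⟩ := cK x⁻¹
    have hx : x = b⁻¹ * a⁻¹ := by rw [← mul_inv_rev, ← e, inv_inv]
    have h1 := hAK (hconjA a⁻¹ (H₁.inv_mem ha) m hm)
    have := K.mul_mem (K.mul_mem (K.inv_mem hb) h1) hb
    rw [hx]
    simpa [mul_assoc] using this
  set N := Subgroup.normalClosure (A : Set G) with hN
  have hNK : N ≤ K := by
    rw [hN, Subgroup.normalClosure, Subgroup.closure_le]
    intro y hy
    obtain ⟨m, hm, hy⟩ := Group.mem_conjugatesOfSet_iff.mp hy
    obtain ⟨c, hc⟩ := isConj_iff.mp hy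
    exact hc ▸ hall c m hm
  have hN0 : N ≠ ⊥ := fun h => hA0 (le_bot_iff.mp (h ▸ Subgroup.subset_normalClosure))
  have := hKs
  have hNs : Group.IsSolvable N := Group.isSolvable_of_isSolvable_injective (f := Subgroup.inclusion hNK) (Subgroup.inclusion_injective hNK)
  have hq : Group.IsSolvable (G ⧸ N) := by
    have h1 := N.card_eq_card_quotient_mul_card_subgroup
    have h2 : 1 < Nat.card N := by
      have := mt Subgroup.card_eq_one.mp hN0
      have := Nat.card_pos (α := N)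
      omega
    have hlt : Nat.card (G ⧸ N) < n := by rw [← hn, h1]; exact lt_mul_of_one_lt_right Nat.card_pos h2
    have hmap : ∀ X : Subgroup G, Group.IsSolvable X → Group.IsSolvable (X.map (QuotientGroup.mk' N)) :=
      fun X _ => Group.isSolvable_of_surjective (f := (QuotientGroup.mk' N).subgroupMap X) (MonoidHom.subgroupMap_surjective _ _)
    have hidx : ∀ X : Subgroup G, (X.map (QuotientGroup.mk' N)).index ∣ X.index := fun X =>
      Subgroup.index_map_dvd X (QuotientGroup.mk'_surjective N)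
    have hfac : ∀ X : Subgroup G, (∀ g : G, ∃ x ∈ H₁, ∃ y ∈ X, g = x * y) →
        ∀ g : G ⧸ N, ∃ x ∈ H₁.map (QuotientGroup.mk' N), ∃ y ∈ X.map (QuotientGroup.mk' N), g = x * y := by
      intro X hX g
      obtain ⟨g, rfl⟩ := QuotientGroup.mk'_surjective N g
      obtain ⟨x, hx, y, hy, rfl⟩ := hX g
      exact ⟨_, Subgroup.mem_map_of_mem _ hx, _, Subgroup.mem_map_of_mem _ hy, map_mul _ _ _⟩
    exact ih _ hlt (G ⧸ N) rfl _ _ _ (hmap _ s1) (hmap _ s2) (hmap _ s3) (hfac _ c12) (hfac _ c13)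
      ((c23.coprime_dvd_left (hidx _)).coprime_dvd_right (hidx _))
  exact Group.isSolvable_of_ker_le_range N.subtype (QuotientGroup.mk' N) (by simp)

end CfsgLib.Solvable.ThreeFactor
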