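import Mathlib

/-! A core-free maximal subgroup with two minimal normal subgroups. -/

set_option autoImplicit false
set_option linter.style.haveILetI false

namespace CfsgLib.Solvable.TwoMinimal

universe u

variable {G : Type u} [Group G] [Finite G]

theorem basic (U : Subgroup G) (hU : IsCoatom U) (hcore : U.normalCore = ⊥) (A B : Subgroup G) [A.Normal] [B.Normal]
    (hA : A ≠ ⊥) (hB : B ≠ ⊥) (hAmin : ∀ K : Subgroup G, K.Normal → K ≤ A → K = ⊥ ∨ K = A)
    (hBmin : ∀ K : Subgroup G, K.Normal → K ≤ B → K = ⊥ ∨ K = B) (hAB : A ≠ B) :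
    Subgroup.centralizer (A : Set G) = B ∧ Subgroup.IsComplement' B U := by
  have hsmall : ∀ N : Subgroup G, N.Normal → N ≤ U → N = ⊥ := fun N hN hle => by
    haveI := hN
    exact le_bot_iff.mp (hcore ▸ Subgroup.normal_le_normalCore.mpr hle)
  have htop : ∀ N : Subgroup G, N.Normal → N ≠ ⊥ → N ⊔ U = ⊤ := fun N hN h0 =>
    (hU.le_iff.mp (le_sup_right : U ≤ N ⊔ U)).resolve_right fun e => h0 (hsmall N hN (le_sup_left.trans e.le))
  have hd : A ⊓ B = ⊥ := by
    rcases hAmin (A ⊓ B) inferInstance inf_le_left with h | h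
    · exact h
    · rcases hBmin (A ⊓ B) inferInstance inf_le_right with h' | h'
      · exact h'
      · exact absurd (h.symm.trans h') hAB
  set C := Subgroup.centralizer (A : Set G) with hC
  haveI hCn : C.Normal := Subgroup.normal_centralizer
  have hBC : B ≤ C := fun b hb => Subgroup.mem_centralizer_iff.mpr fun a ha =>
    Subgroup.commute_of_normal_of_disjoint _ _ inferInstance inferInstance (disjoint_iff.mpr hd) a b ha hb
  have hCU : C ⊓ U = ⊥ := by
    refine hsmall _ ?_ inf_le_right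
    rw [← Subgroup.normalizer_eq_top_iff, eq_top_iff, ← htop A inferInstance hA]
    refine sup_le (fun a ha => Subgroup.mem_normalizer_fintype fun x hx => ?_) (fun u hu => Subgroup.mem_normalizer_fintype fun x hx => ?_)
    · show a * x * a⁻¹ ∈ C ⊓ U
      rwa [Subgroup.mem_centralizer_iff.mp hx.1 a ha, mul_inv_cancel_right]
    · exact ⟨hCn.conj_mem x hx.1 u, U.mul_mem (U.mul_mem hu hx.2) (U.inv_mem hu)⟩
  have hBU : B ⊓ U = ⊥ := eq_bot_iff.mpr (hCU ▸ inf_le_inf_right U hBC)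
  refine ⟨le_antisymm (fun c hc => ?_) hBC, Subgroup.isComplement'_of_disjoint_and_mul_eq_univ (disjoint_iff.mpr hBU) ?_⟩
  · have hc' : c ∈ (↑(B ⊔ U) : Set G) := by rw [htop B inferInstance hB]; trivial
    rw [Subgroup.normal_mul] at hc'
    obtain ⟨b, hb, u, hu, rfl⟩ := hc'
    have : u ∈ C ⊓ U := ⟨by simpa using C.mul_mem (C.inv_mem (hBC hb)) hc, hu⟩
    rw [hCU, Subgroup.mem_bot] at this
    subst this
    simpa using hb
  · rw [← Subgroup.normal_mul, htop B inferInstance hB]; rfl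

theorem equiv_inf (U A B : Subgroup G) [A.Normal] [B.Normal] (hd : A ⊓ B = ⊥) (hBU : Subgroup.IsComplement' B U)
    (hAU : A ⊓ U = ⊥) : Nonempty (A ≃* ↥((A ⊔ B) ⊓ U)) := by
  classical
  have hu : ∀ a : A, ∃ u : ↥((A ⊔ B) ⊓ U), (a : G)⁻¹ * u ∈ B := by
    intro a
    obtain ⟨⟨b, u⟩, hbu⟩ := hBU.2 (a : G)
    have e : (u : G) = (b : G)⁻¹ * a := by simp [← hbu]
    refine ⟨⟨u, ?_, u.2⟩, ?_⟩
    · rw [e]; exact mul_mem (Subgroup.mem_sup_right (inv_mem b.2)) (Subgroup.mem_sup_left a.2)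
    · show (a : G)⁻¹ * (u : G) ∈ B
      rw [e, ← mul_assoc]
      simpa using ‹B.Normal›.conj_mem _ (B.inv_mem (b.2 : (b : G) ∈ B)) (a : G)⁻¹
  choose f hf using hu
  have huniq : ∀ (a : A) (u : G), u ∈ U → (a : G)⁻¹ * u ∈ B → u = (f a : G) := by
    intro a u hu hub
    have : u⁻¹ * (f a : G) ∈ B ⊓ U := ⟨by simpa [mul_assoc] using B.mul_mem (B.inv_mem hub) (hf a),
      U.mul_mem (U.inv_mem hu) (f a).2.2⟩
    rw [disjoint_iff.mp hBU.disjoint, Subgroup.mem_bot, inv_mul_eq_one] at this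
    exact this
  let φ : A →* ↥((A ⊔ B) ⊓ U) := MonoidHom.mk' f fun a c => by
    refine Subtype.ext (huniq (a * c) ((f a : G) * f c) (mul_mem (f a).2.2 (f c).2.2) ?_).symm
    have : ((a * c : A) : G)⁻¹ * ((f a : G) * f c) =
        ((c : G)⁻¹ * ((a : G)⁻¹ * f a) * c) * ((c : G)⁻¹ * f c) := by push_cast; group
    rw [this]
    exact mul_mem (by simpa using ‹B.Normal›.conj_mem _ (hf a) (c : G)⁻¹) (hf c)
  refine ⟨MulEquiv.ofBijective φ ⟨(injective_iff_map_eq_one φ).mpr fun a ha => ?_, fun u => ?_⟩⟩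
  · have h1 := hf a
    rw [show f a = 1 from ha] at h1
    have : (a : G)⁻¹ ∈ A ⊓ B := ⟨A.inv_mem a.2, by simpa using h1⟩
    rw [hd, Subgroup.mem_bot, inv_eq_one] at this
    exact Subtype.ext this
  · have hu' : (u : G) ∈ (↑(A ⊔ B) : Set G) := u.2.1
    rw [Subgroup.normal_mul] at hu'
    obtain ⟨a, ha, b, hb, he⟩ := hu'
    refine ⟨⟨a, ha⟩, Subtype.ext (huniq ⟨a, ha⟩ u u.2.2 ?_).symm⟩
    show a⁻¹ * (u : G) ∈ B
    rw [← he]
    simpa using hb

theorem main (U : Subgroup G) (hU : IsCoatom U) (hcore : U.normalCore = ⊥) (A B : Subgroup G) [A.Normal] [B.Normal]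
    (hA : A ≠ ⊥) (hB : B ≠ ⊥) (hAmin : ∀ K : Subgroup G, K.Normal → K ≤ A → K = ⊥ ∨ K = A)
    (hBmin : ∀ K : Subgroup G, K.Normal → K ≤ B → K = ⊥ ∨ K = B) (hAB : A ≠ B) :
    Subgroup.centralizer (B : Set G) = A ∧ Subgroup.centralizer (A : Set G) = B ∧ Subgroup.IsComplement' A U ∧
      Subgroup.IsComplement' B U ∧ ¬ IsMulCommutative A ∧ Nonempty (A ≃* B) ∧ Nonempty (A ≃* ↥((A ⊔ B) ⊓ U)) := by
  obtain ⟨h1, h2⟩ := basic U hU hcore A B hA hB hAmin hBmin hAB
  obtain ⟨h3, h4⟩ := basic U hU hcore B A hB hA hBmin hAmin hAB.symm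
  have hd : A ⊓ B = ⊥ := by
    rcases hAmin (A ⊓ B) inferInstance inf_le_left with h | h
    · exact h
    · rcases hBmin (A ⊓ B) inferInstance inf_le_right with h' | h'
      · exact h'
      · exact absurd (h.symm.trans h') hAB
  obtain ⟨e1⟩ := equiv_inf U A B hd h2 (disjoint_iff.mp h4.disjoint)
  obtain ⟨e2⟩ := equiv_inf U B A (by rwa [inf_comm]) h4 (disjoint_iff.mp h2.disjoint)
  refine ⟨h3, h1, h4, h2, fun hc => ?_, ⟨e1.trans ((MulEquiv.subgroupCongr (by rw [sup_comm])).trans e2.symm)⟩, ⟨e1⟩⟩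
  refine hA (eq_bot_iff.mpr fun a ha => ?_)
  have : a ∈ Subgroup.centralizer (A : Set G) := Subgroup.mem_centralizer_iff.mpr fun c hc' =>
    congrArg Subtype.val (hc.is_comm.comm (⟨c, hc'⟩ : A) ⟨a, ha⟩)
  rw [h1] at this
  exact hd ▸ ⟨ha, this⟩

end CfsgLib.Solvable.TwoMinimal
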