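import Cfsg.Agent.S0022

/-! Wielandt's fixed point formula for Frobenius groups acting coprimely on solvable groups. -/

set_option autoImplicit false
set_option linter.unusedSectionVars false
set_option linter.style.haveILetI false

namespace CfsgLib.WielandtFormula

open Matrix

universe u

section Lift

variable {p : ℕ} [hp : Fact p.Prime] {k d : ℕ} (hk : k ≠ 0)

/-- A natural number prime to `p` is invertible modulo powers of `p`. -/
theorem isUnit_natCast {n : ℕ} (hn : ¬ p ∣ n) : IsUnit (n : ZMod (p ^ k)) :=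
  (ZMod.isUnit_iff_coprime n (p ^ k)).mpr (((hp.out.coprime_iff_not_dvd).mpr hn).symm.pow_right k)

/-- Reduction modulo `p`. -/
def red : Matrix (Fin d) (Fin d) (ZMod (p ^ k)) →+* Matrix (Fin d) (Fin d) (ZMod p) :=
  (ZMod.castHom (dvd_pow_self p hk) (ZMod p)).mapMatrix

theorem exists_red_eq (Y : Matrix (Fin d) (Fin d) (ZMod p)) : ∃ X, red (k := k) hk X = Y :=
  ⟨Y.map fun y => ((y.val : ℕ) : ZMod (p ^ k)), by ext i j; simp [red]⟩

theorem isUnit_of_isUnit_red {X : Matrix (Fin d) (Fin d) (ZMod (p ^ k))}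
    (h : IsUnit (red hk X)) : IsUnit X := by
  haveI : NeZero (p ^ k) := ⟨pow_ne_zero _ hp.out.ne_zero⟩
  rw [Matrix.isUnit_iff_isUnit_det] at h ⊢
  rw [red, ← RingHom.map_det] at h
  have key : ∀ a : ZMod (p ^ k), ZMod.castHom (dvd_pow_self p hk) (ZMod p) a ≠ 0 → IsUnit a := by
    intro a ha
    rw [← ZMod.natCast_zmod_val a] at ha ⊢
    rw [map_natCast, Ne, ZMod.natCast_eq_zero_iff] at ha
    exact isUnit_natCast ha
  exact key _ h.ne_zero

/-- Lifting of a representation of order prime to `p`. -/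
theorem exists_lift {G : Type*} [Group G] [Finite G] (hG : ¬ p ∣ Nat.card G)
    (M : G →* Matrix (Fin d) (Fin d) (ZMod p)) :
    ∃ L : G →* Matrix (Fin d) (Fin d) (ZMod (p ^ k)), ∀ g, red hk (L g) = M g := by
  classical
  haveI : NeZero (p ^ k) := ⟨pow_ne_zero _ hp.out.ne_zero⟩
  let R := Matrix (Fin d) (Fin d) (ZMod (p ^ k))
  let f : Rˣ →* (Matrix (Fin d) (Fin d) (ZMod p))ˣ := Units.map (red hk).toMonoidHom
  let m := M.toHomUnits
  let P : Subgroup Rˣ := m.range.comap f
  let fP : P →* m.range := (f.comp P.subtype).codRestrict m.range fun x => x.2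
  have hfP : Function.Surjective fP := by
    rintro ⟨y, hy⟩
    obtain ⟨X, hX⟩ := exists_red_eq (k := k) hk (y : Matrix (Fin d) (Fin d) (ZMod p))
    have hu : IsUnit X := isUnit_of_isUnit_red hk (by rw [hX]; exact y.isUnit)
    have he : f hu.unit = y := Units.ext (by simp [f, hX])
    exact ⟨⟨hu.unit, by show f hu.unit ∈ m.range; rw [he]; exact hy⟩, Subtype.ext he⟩
  let K0 : AddSubgroup R := (red (k := k) (d := d) hk).toAddMonoidHom.ker
  have hcR : Nat.card R = (p ^ k) ^ (d * d) := by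
    simp only [R, Matrix, Nat.card_fun, Nat.card_zmod, Nat.card_fin]
    rw [← pow_mul]
  have hmem : ∀ x : P, x ∈ fP.ker ↔ red hk ((x : Rˣ) : R) = 1 := by
    intro x
    rw [MonoidHom.mem_ker, Subtype.ext_iff, Units.ext_iff]
    rfl
  let e : fP.ker ≃ K0 :=
    { toFun := fun x => ⟨((x : P) : Rˣ) - (1 : R), by
        show red hk (_ - 1) = 0
        rw [map_sub, (hmem _).mp x.2, map_one, sub_self]⟩
      invFun := fun y => ⟨⟨(isUnit_of_isUnit_red hk (X := (1 : R) + (y : R))
        (by rw [map_add, map_one, show red hk (y : R) = 0 from y.2, add_zero]; exact isUnit_one)).unit, by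
          refine ⟨1, Units.ext ?_⟩
          show _ = red hk _
          rw [IsUnit.unit_spec, map_add, show red hk (y : R) = 0 from y.2, map_one, add_zero, map_one]
          rfl⟩, by
          rw [hmem, IsUnit.unit_spec, map_add, show red hk (y : R) = 0 from y.2, map_one, add_zero]⟩
      left_inv := fun x => Subtype.ext (Subtype.ext (Units.ext (by simp)))
      right_inv := fun y => Subtype.ext (by simp) }
  have hcK : Nat.card fP.ker ∣ (p ^ k) ^ (d * d) := by
    rw [Nat.card_congr e, ← hcR]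
    exact AddSubgroup.card_addSubgroup_dvd_card _
  have hidx : fP.ker.index = Nat.card m.range := by
    rw [Subgroup.index_ker, MonoidHom.range_eq_top.mpr hfP]
    exact Nat.card_congr Subgroup.topEquiv.toEquiv
  have hco : Nat.Coprime (Nat.card fP.ker) fP.ker.index := by
    have h1 : fP.ker.index ∣ Nat.card G := hidx ▸ Subgroup.card_range_dvd m
    have h2 : Nat.Coprime p fP.ker.index :=
      (hp.out.coprime_iff_not_dvd).mpr fun h => hG (h.trans h1)
    exact ((h2.pow_left k).pow_left (d * d)).coprime_dvd_left hcK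
  obtain ⟨C, hC⟩ := Subgroup.exists_right_complement'_of_coprime hco
  have hbij : Function.Bijective (fP.comp C.subtype) := by
    constructor
    · rw [← MonoidHom.ker_eq_bot_iff, eq_bot_iff]
      intro x hx
      have h2 : (x : P) ∈ fP.ker ⊓ C := ⟨hx, x.2⟩
      rw [hC.disjoint.eq_bot] at h2
      exact Subtype.ext h2
    · intro y
      obtain ⟨x, rfl⟩ := hfP y
      obtain ⟨⟨n, c⟩, hnc⟩ := hC.2 x
      refine ⟨c, ?_⟩
      simp only at hnc
      rw [← hnc, map_mul, MonoidHom.mem_ker.mp n.2, one_mul]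
      rfl
  let q := MulEquiv.ofBijective _ hbij
  refine ⟨(Units.coeHom R).comp (P.subtype.comp (C.subtype.comp (q.symm.toMonoidHom.comp m.rangeRestrict))),
    fun g => ?_⟩
  have := congrArg (fun z : m.range => ((z : (Matrix (Fin d) (Fin d) (ZMod p))ˣ) : Matrix (Fin d) (Fin d) (ZMod p)))
    (q.apply_symm_apply (m.rangeRestrict g))
  exact this

/-- The trace of an idempotent is the rank of its reduction. -/
theorem trace_eq_rank {P : Matrix (Fin d) (Fin d) (ZMod (p ^ k))} (hP : P * P = P) :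
    P.trace = (Module.finrank (ZMod p) ↥(LinearMap.range (Matrix.mulVecLin (red hk P))) : ℕ) := by
  classical
  set Q := red hk P with hQdef
  have hQ : Q * Q = Q := by rw [hQdef, ← map_mul, hP]
  set e := Matrix.toLin' Q with he
  have hee : ∀ v, e (e v) = e v := fun v => by
    rw [he, Matrix.toLin'_apply, Matrix.toLin'_apply, Matrix.mulVec_mulVec, hQ]
  have hcompl : IsCompl (LinearMap.range e) (LinearMap.ker e) := by
    constructor
    · rw [disjoint_iff_inf_le]
      rintro _ ⟨⟨v, rfl⟩, hv⟩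
      simpa [hee] using hv
    · rw [codisjoint_iff_le_sup]
      intro v _
      exact Submodule.mem_sup.mpr ⟨e v, ⟨v, rfl⟩, v - e v, by simp [hee], by abel⟩
  let b₀ := ((Module.finBasis (ZMod p) (LinearMap.range e)).prod
    (Module.finBasis (ZMod p) (LinearMap.ker e))).map (Submodule.prodEquivOfIsCompl _ _ hcompl)
  let φ := b₀.indexEquiv (Pi.basisFun (ZMod p) (Fin d))
  let b := b₀.reindex φ
  let δ : Fin d → ℕ := fun i => if (φ.symm i).isLeft then 1 else 0
  have hb : ∀ j, e (b j) = (δ j : ZMod p) • b j := by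
    intro j
    simp only [b, Module.Basis.reindex_apply, δ]
    rcases φ.symm j with i | i
    · obtain ⟨v, hv⟩ := (Module.finBasis (ZMod p) (LinearMap.range e) i).2
      simp [b₀, ← hv, hee]
    · have hv := (Module.finBasis (ZMod p) (LinearMap.ker e) i).2
      rw [LinearMap.mem_ker] at hv
      simp [b₀, hv]
  have hD : LinearMap.toMatrix b b e = Matrix.diagonal fun i => (δ i : ZMod p) := by
    ext i j
    rw [LinearMap.toMatrix_apply, hb, map_smul, Module.Basis.repr_self, Matrix.diagonal_apply]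
    by_cases hij : i = j
    · subst hij; simp
    · simp [hij, Ne.symm hij]
  set S := (Pi.basisFun (ZMod p) (Fin d)).toMatrix b with hS
  set T := b.toMatrix (Pi.basisFun (ZMod p) (Fin d)) with hT
  have hST : S * T = 1 := Module.Basis.toMatrix_mul_toMatrix_flip _ _
  have hTS : T * S = 1 := Module.Basis.toMatrix_mul_toMatrix_flip _ _
  have hQST : Q = S * Matrix.diagonal (fun i => (δ i : ZMod p)) * T := by
    rw [← hD, hS, hT, basis_toMatrix_mul_linearMap_toMatrix_mul_basis_toMatrix, ← LinearMap.toMatrix'_toLin' Q]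
    rfl
  obtain ⟨S', hS'⟩ := exists_red_eq (k := k) hk S
  have hS'u : IsUnit S' := isUnit_of_isUnit_red hk (by rw [hS']; exact ⟨⟨S, T, hST, hTS⟩, rfl⟩)
  set D' : Matrix (Fin d) (Fin d) (ZMod (p ^ k)) := Matrix.diagonal fun i => (δ i : ZMod (p ^ k)) with hD'
  have hD'2 : D' * D' = D' := by
    rw [hD', Matrix.diagonal_mul_diagonal]
    congr 1
    funext i
    simp only [δ]
    split <;> simp
  set s := hS'u.unit with hs
  set P2 : Matrix (Fin d) (Fin d) (ZMod (p ^ k)) := (s : Matrix _ _ _) * D' * ((s⁻¹ : _ˣ) : Matrix _ _ _) with hP2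
  have hred2 : red hk P2 = Q := by
    have h1 : red hk (s : Matrix (Fin d) (Fin d) (ZMod (p ^ k))) = S := hS'
    have h2 : red hk ((s⁻¹ : _ˣ) : Matrix (Fin d) (Fin d) (ZMod (p ^ k))) = T := by
      have h3 := congrArg (red hk) s.mul_inv
      rw [map_mul, h1, map_one] at h3
      calc _ = (T * S) * red hk ((s⁻¹ : _ˣ) : Matrix (Fin d) (Fin d) (ZMod (p ^ k))) := by rw [hTS, one_mul]
        _ = T := by rw [mul_assoc, h3, mul_one]
    have h4 : red hk D' = Matrix.diagonal (fun i => (δ i : ZMod p)) := by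
      ext i j
      by_cases hij : i = j <;> simp [red, hD', hij]
    rw [hP2, map_mul, map_mul, h1, h2, h4, hQST]
  have hP22 : P2 * P2 = P2 := by
    simp only [hP2, mul_assoc, Units.inv_mul_cancel_left]
    rw [← mul_assoc D' D', hD'2]
  have huu : IsUnit (P * P2 + (1 - P) * (1 - P2)) := by
    apply isUnit_of_isUnit_red hk
    rw [map_add, map_mul (red hk) P P2, map_mul (red hk) (1 - P) (1 - P2), map_sub, map_sub, map_one, hred2, ← hQdef, hQ, sub_mul, one_mul,
      mul_sub, mul_one, hQ]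
    simp
  obtain ⟨w, hw⟩ := huu
  have hcomm : P * (w : Matrix _ _ _) = (w : Matrix _ _ _) * P2 := by
    rw [hw, mul_add, add_mul, ← mul_assoc, hP, ← mul_assoc P (1 - P), mul_sub P 1 P, mul_one, hP, sub_self,
      zero_mul, add_zero, mul_assoc P P2 P2, hP22, mul_assoc (1 - P) (1 - P2), sub_mul 1 P2 P2, one_mul, hP22,
      sub_self, mul_zero, add_zero]
  calc P.trace = ((w : Matrix _ _ _) * P2 * ((w⁻¹ : _ˣ) : Matrix _ _ _)).trace := by
        rw [← hcomm, Units.mul_inv_cancel_right]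
    _ = P2.trace := Matrix.trace_units_conj _ _
    _ = D'.trace := Matrix.trace_units_conj _ _
    _ = _ := by
        rw [hD', Matrix.trace_diagonal, ← Nat.cast_sum, ← φ.sum_comp, show Matrix.mulVecLin Q = e from rfl,
          Fintype.sum_sum_type]
        simp [δ]

end Lift

section Linear

variable {p : ℕ} [hp : Fact p.Prime] {d : ℕ} {G : Type*} [Group G] [Fintype G]

/-- The fixed space of a subgroup. -/
def fixedSpace (M : G →* Matrix (Fin d) (Fin d) (ZMod p)) (A : Subgroup G) :
    Submodule (ZMod p) (Fin d → ZMod p) where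
  carrier := {v | ∀ a ∈ A, M a *ᵥ v = v}
  zero_mem' := fun a _ => Matrix.mulVec_zero _
  add_mem' := fun {v w} hv hw a ha => by rw [Matrix.mulVec_add, hv a ha, hw a ha]
  smul_mem' := fun c v hv a ha => by rw [Matrix.mulVec_smul, hv a ha]

open Classical in
/-- The elements of a subgroup as a finset. -/
noncomputable def els (A : Subgroup G) : Finset G := Finset.univ.filter fun g => g ∈ A

theorem mem_els {A : Subgroup G} {g : G} : g ∈ els A ↔ g ∈ A := by simp [els]

theorem card_els (A : Subgroup G) : (els A).card = Nat.card A := by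
  classical
  rw [Nat.card_eq_fintype_card, Fintype.card_subtype, els]

theorem sum_els_mul {S : Type*} [Ring S] (L : G →* S) {A : Subgroup G} {a : G} (ha : a ∈ A) :
    L a * (∑ x ∈ els A, L x) = ∑ x ∈ els A, L x := by
  rw [Finset.mul_sum]
  refine Finset.sum_nbij' (fun x => a * x) (fun x => a⁻¹ * x) ?_ ?_ ?_ ?_ ?_
  · exact fun x hx => mem_els.mpr (mul_mem ha (mem_els.mp hx))
  · exact fun x hx => mem_els.mpr (mul_mem (inv_mem ha) (mem_els.mp hx))
  · exact fun x _ => inv_mul_cancel_left a x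
  · exact fun x _ => mul_inv_cancel_left a x
  · exact fun x _ => (map_mul L a x).symm

theorem trace_sum {k : ℕ} (hk : k ≠ 0) (hG : ¬ p ∣ Nat.card G) {M : G →* Matrix (Fin d) (Fin d) (ZMod p)}
    {L : G →* Matrix (Fin d) (Fin d) (ZMod (p ^ k))} (hL : ∀ g, red hk (L g) = M g) (A : Subgroup G) :
    (∑ a ∈ els A, L a).trace = (Nat.card A : ZMod (p ^ k)) * (Module.finrank (ZMod p) ↥(fixedSpace M A) : ℕ) := by
  haveI : NeZero (p ^ k) := ⟨pow_ne_zero _ hp.out.ne_zero⟩
  obtain ⟨c, hc⟩ := isUnit_natCast (k := k) (fun h => hG (h.trans (Subgroup.card_subgroup_dvd_card A)))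
  set σA := ∑ a ∈ els A, L a with hS1
  set P := ((c⁻¹ : _ˣ) : ZMod (p ^ k)) • σA with hPdef
  have hSS : σA * σA = (Nat.card A : ZMod (p ^ k)) • σA := by
    rw [hS1, Finset.sum_mul, Finset.sum_congr rfl fun a ha => sum_els_mul L (mem_els.mp ha),
      Finset.sum_const, card_els, Nat.cast_smul_eq_nsmul]
  have hPP : P * P = P := by
    rw [hPdef, smul_mul_smul_comm, hSS, smul_smul, mul_assoc, ← hc, Units.inv_mul, mul_one]
  have hQ : red hk P = (ZMod.castHom (dvd_pow_self p hk) (ZMod p) ((c⁻¹ : _ˣ) : ZMod (p ^ k))) •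
      ∑ a ∈ els A, M a := by
    ext i j
    rw [Matrix.smul_apply, smul_eq_mul]
    show ZMod.castHom (dvd_pow_self p hk) (ZMod p) (((c⁻¹ : _ˣ) : ZMod (p ^ k)) * σA i j) = _
    rw [map_mul, hS1, Matrix.sum_apply, Matrix.sum_apply, map_sum]
    congr 1
    exact Finset.sum_congr rfl fun a _ => by rw [← hL]; rfl
  have hrange : LinearMap.range (Matrix.mulVecLin (red hk P)) = fixedSpace M A := by
    rw [hQ]
    apply le_antisymm
    · rintro _ ⟨v, rfl⟩ a ha
      rw [Matrix.mulVecLin_apply, Matrix.mulVec_mulVec, mul_smul_comm, sum_els_mul M ha]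
    · intro v hv
      refine ⟨v, ?_⟩
      rw [Matrix.mulVecLin_apply, Matrix.smul_mulVec, Matrix.sum_mulVec,
        Finset.sum_congr rfl fun a ha => hv a (mem_els.mp ha), Finset.sum_const, card_els,
        ← Nat.cast_smul_eq_nsmul (ZMod p), smul_smul,
        ← map_natCast (ZMod.castHom (dvd_pow_self p hk) (ZMod p)) (Nat.card A), ← map_mul, ← hc,
        Units.inv_mul, map_one, one_smul]
  have htr := trace_eq_rank hk hPP
  rw [hrange, hPdef, Matrix.trace_smul, smul_eq_mul] at htr
  rw [← htr, ← hc, Units.mul_inv_cancel_left]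

variable (U E : Subgroup G) (hUE : U ⊓ E = ⊥) (hUn : ∀ e ∈ E, ∀ u ∈ U, e * u * e⁻¹ ∈ U)
  (hfpf : ∀ e ∈ E, e ≠ 1 → ∀ u ∈ U, e * u = u * e → u = 1) (hcard : Nat.card G = Nat.card U * Nat.card E)

include hUE hUn hfpf hcard in
theorem sum_partition {S : Type*} [Ring S] (L : G →* S) :
    (∑ g, L g) + (Nat.card U : S) = (∑ u ∈ els U, L u) + ∑ u ∈ els U, L u * (∑ e ∈ els E, L e) * L u⁻¹ := by
  classical
  set T := els U ×ˢ (els E).erase 1 with hT
  let φ : G × G → G := fun x => x.1 * x.2 * x.1⁻¹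
  have hinj : Set.InjOn φ (T : Set (G × G)) := by
    rintro ⟨u, e⟩ hx ⟨v, f⟩ hy heq
    simp only [hT, Finset.coe_product, Set.mem_prod, Finset.mem_coe, mem_els, Finset.mem_erase] at hx hy
    obtain ⟨hu, he1, he⟩ := hx
    obtain ⟨hv, hf1, hf⟩ := hy
    simp only [φ] at heq
    have hw : v⁻¹ * u ∈ U := mul_mem (inv_mem hv) hu
    have h1 : (v⁻¹ * u) * e * (v⁻¹ * u)⁻¹ = f := by
      calc (v⁻¹ * u) * e * (v⁻¹ * u)⁻¹ = v⁻¹ * (u * e * u⁻¹) * v := by group
        _ = f := by rw [heq]; group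
    have h2 : f * e⁻¹ ∈ U ⊓ E := by
      refine Subgroup.mem_inf.mpr ⟨?_, mul_mem hf (inv_mem he)⟩
      show f * e⁻¹ ∈ U
      rw [← h1, show (v⁻¹ * u) * e * (v⁻¹ * u)⁻¹ * e⁻¹ = (v⁻¹ * u) * (e * (v⁻¹ * u)⁻¹ * e⁻¹) by group]
      exact mul_mem hw (hUn e he _ (inv_mem hw))
    rw [hUE, Subgroup.mem_bot, mul_inv_eq_one] at h2
    subst h2
    have h3 : f * (v⁻¹ * u) = (v⁻¹ * u) * f := by
      have h4 := mul_inv_eq_iff_eq_mul.mp h1
      exact h4.symm
    have h5 := hfpf f he he1 _ hw h3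
    rw [inv_mul_eq_one] at h5
    exact Prod.ext h5.symm rfl
  have hdisj : ∀ x ∈ T, φ x ∈ Finset.univ \ els U := by
    rintro ⟨u, e⟩ hx
    simp only [hT, Finset.mem_product, mem_els, Finset.mem_erase] at hx
    rw [Finset.mem_sdiff, mem_els]
    refine ⟨Finset.mem_univ _, fun h => hx.2.1 ?_⟩
    have h2 : e ∈ U ⊓ E := ⟨by
      have := mul_mem (mul_mem (inv_mem hx.1) h) hx.1
      simpa [φ, mul_assoc] using this, hx.2.2⟩
    rwa [hUE, Subgroup.mem_bot] at h2
  have himg : T.image φ = Finset.univ \ els U := by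
    refine Finset.eq_of_subset_of_card_le (fun g hg => ?_) ?_
    · obtain ⟨x, hx, rfl⟩ := Finset.mem_image.mp hg
      exact hdisj x hx
    · rw [Finset.card_image_of_injOn hinj, Finset.card_univ_sdiff, hT, Finset.card_product,
        Finset.card_erase_of_mem (mem_els.mpr (one_mem E)), card_els, card_els, ← Nat.card_eq_fintype_card, hcard,
        Nat.mul_sub, mul_one]
  have hsum : ∑ u ∈ els U, L u * (∑ e ∈ els E, L e) * L u⁻¹ =
      (Nat.card U : S) + ∑ g ∈ Finset.univ \ els U, L g := by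
    rw [← himg, Finset.sum_image hinj, hT, Finset.sum_product, ← card_els, Finset.cast_card,
      ← Finset.sum_add_distrib]
    refine Finset.sum_congr rfl fun u _ => ?_
    rw [Finset.mul_sum, Finset.sum_mul, ← Finset.add_sum_erase _ _ (mem_els.mpr (one_mem E))]
    simp [φ, ← map_mul]
  rw [hsum, ← Finset.sum_sdiff (Finset.subset_univ (els U))]
  abel

include hUE hUn hfpf hcard in
theorem linear_formula (hG : ¬ p ∣ Nat.card G) (M : G →* Matrix (Fin d) (Fin d) (ZMod p)) :
    Nat.card E * Module.finrank (ZMod p) ↥(fixedSpace M ⊤) + d =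
      Module.finrank (ZMod p) ↥(fixedSpace M U) + Nat.card E * Module.finrank (ZMod p) ↥(fixedSpace M E) := by
  set k := (Nat.card E + 1) * (d + 1) with hkdef
  have hk : k ≠ 0 := by positivity
  obtain ⟨L, hL⟩ := exists_lift hk hG M
  have hsum := congrArg Matrix.trace (sum_partition U E hUE hUn hfpf hcard L)
  have hn : (Nat.card U : Matrix (Fin d) (Fin d) (ZMod (p ^ k))).trace = (Nat.card U : ZMod (p ^ k)) * (d : ℕ) := by
    rw [← Matrix.diagonal_natCast, Matrix.trace_diagonal, Finset.sum_const, Finset.card_univ, Fintype.card_fin]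
    simp [mul_comm]
  have hconj : ∀ u, (L u * (∑ e ∈ els E, L e) * L u⁻¹).trace = (∑ e ∈ els E, L e).trace := by
    intro u
    rw [Matrix.trace_mul_comm, ← mul_assoc, ← map_mul, inv_mul_cancel, map_one, one_mul]
  have htop : (els (⊤ : Subgroup G)) = Finset.univ := by ext g; simp [mem_els]
  rw [Matrix.trace_add, Matrix.trace_add, hn, ← htop, trace_sum hk hG hL, trace_sum hk hG hL, Matrix.trace_sum,
    Finset.sum_congr rfl fun u _ => hconj u, Finset.sum_const, card_els, trace_sum hk hG hL, Subgroup.card_top,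
    hcard, nsmul_eq_mul] at hsum
  have hU : IsUnit (Nat.card U : ZMod (p ^ k)) :=
    isUnit_natCast fun h => hG (h.trans (Subgroup.card_subgroup_dvd_card U))
  have heq : ((Nat.card E * Module.finrank (ZMod p) ↥(fixedSpace M ⊤) + d : ℕ) : ZMod (p ^ k)) =
      ((Module.finrank (ZMod p) ↥(fixedSpace M U) +
        Nat.card E * Module.finrank (ZMod p) ↥(fixedSpace M E) : ℕ) : ZMod (p ^ k)) := by
    apply hU.mul_left_cancel
    push_cast at hsum ⊢
    linear_combination hsum
  have hb : ∀ A : Subgroup G, Module.finrank (ZMod p) ↥(fixedSpace M A) ≤ d := fun A =>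
    (Submodule.finrank_le _).trans (Module.finrank_fin_fun (ZMod p)).le
  have hlt : k < p ^ k := Nat.lt_pow_self hp.out.one_lt
  rw [ZMod.natCast_eq_natCast_iff', Nat.mod_eq_of_lt, Nat.mod_eq_of_lt] at heq
  · exact heq
  · nlinarith [hb U, hb E]
  · nlinarith [hb ⊤]

end Linear

section Main

/-- An action on a finite elementary abelian group in matrix form. -/
theorem exists_matrix_rep {Q G : Type*} [CommGroup Q] [Finite Q] [Group G] {p : ℕ} [Fact p.Prime]
    (hexp : ∀ q : Q, q ^ p = 1) (f : G → (Q →* Q)) (h1 : ∀ q, f 1 q = q)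
    (hmul : ∀ x y q, f (x * y) q = f x (f y q)) :
    ∃ (d : ℕ) (M : G →* Matrix (Fin d) (Fin d) (ZMod p)) (e : Q ≃ (Fin d → ZMod p)),
      (∀ g q, M g *ᵥ e q = e (f g q)) ∧ Nat.card Q = p ^ d := by
  letI : Module (ZMod p) (Additive Q) :=
    AddCommGroup.zmodModule (n := p) fun q => congrArg Additive.ofMul (hexp q.toMul)
  let fl : G → (Additive Q →ₗ[ZMod p] Additive Q) := fun x => (MonoidHom.toAdditive (f x)).toZModLinearMap p
  have hfl : ∀ (x : G) (q : Q), fl x (Additive.ofMul q) = Additive.ofMul (f x q) := fun _ _ => rfl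
  let d := Module.finrank (ZMod p) (Additive Q)
  let b : Module.Basis (Fin d) (ZMod p) (Additive Q) := Module.finBasis (ZMod p) (Additive Q)
  refine ⟨d,
    { toFun := fun x => LinearMap.toMatrix b b (fl x)
      map_one' := ?_
      map_mul' := ?_ }, Additive.ofMul.trans b.equivFun.toEquiv, fun g q => ?_, ?_⟩
  · rw [← LinearMap.toMatrix_id b]
    congr 1
    exact LinearMap.ext fun v => congrArg Additive.ofMul (h1 v.toMul)
  · intro x y
    rw [← LinearMap.toMatrix_mul]
    congr 1
    exact LinearMap.ext fun v => congrArg Additive.ofMul (hmul x y v.toMul)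
  · exact LinearMap.toMatrix_mulVec_repr b b (fl g) (Additive.ofMul q)
  · rw [Nat.card_congr (Additive.ofMul (α := Q)), Module.natCard_eq_pow_finrank (K := ZMod p), Nat.card_zmod]

variable {X : Type u} [Group X] [Finite X]

/-- Wielandt's fixed point formula for coprime actions of Frobenius groups on solvable groups. -/
theorem wielandt (U E : Subgroup X) (hUE : U ⊓ E = ⊥) (hUn : ∀ e ∈ E, ∀ u ∈ U, e * u * e⁻¹ ∈ U)
    (hfpf : ∀ e ∈ E, e ≠ 1 → ∀ u ∈ U, e * u = u * e → u = 1) (n : ℕ) :
    ∀ H : Subgroup X, Nat.card H = n → (∀ x ∈ U ⊔ E, ∀ h ∈ H, x * h * x⁻¹ ∈ H) → Group.IsSolvable H →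
      Nat.Coprime (Nat.card H) (Nat.card ↥(U ⊔ E)) →
      Nat.card ↥(H ⊓ Subgroup.centralizer ((U ⊔ E : Subgroup X) : Set X)) ^ Nat.card E * Nat.card H =
        Nat.card ↥(H ⊓ Subgroup.centralizer (E : Set X)) ^ Nat.card E *
          Nat.card ↥(H ⊓ Subgroup.centralizer (U : Set X)) := by
  classical
  induction n using Nat.strong_induction_on with
  | _ n ih =>
  intro H hn hHn hsolv hcop
  rcases eq_or_ne H ⊥ with rfl | hne
  · simp
  haveI := hsolv
  haveI : Nontrivial H := (Subgroup.nontrivial_iff_ne_bot H).mpr hne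
  have hlt := Group.IsSolvable.commutator_lt_top_of_nontrivial H
  haveI : Nontrivial (Abelianization H) := QuotientGroup.nontrivial_iff.mpr hlt.ne
  obtain ⟨p, hpp, hpd⟩ := Nat.exists_prime_and_dvd (Finite.one_lt_card (α := Abelianization H)).ne'
  haveI := Fact.mk hpp
  let R0 : Subgroup (Abelianization H) := (powMonoidHom p).range
  let Q := Abelianization H ⧸ R0
  let π : H →* Q := (QuotientGroup.mk' R0).comp Abelianization.of
  have hπ : Function.Surjective π :=
    (QuotientGroup.mk'_surjective R0).comp QuotientGroup.mk_surjective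
  haveI : Nontrivial Q := by
    refine QuotientGroup.nontrivial_iff.mpr fun htop => ?_
    have hinj := Finite.injective_iff_surjective.mpr (MonoidHom.range_eq_top.mp htop)
    obtain ⟨z, hz⟩ := exists_prime_orderOf_dvd_card' p hpd
    have : z = 1 := hinj (by simp [powMonoidHom_apply, ← hz, pow_orderOf_eq_one])
    rw [this, orderOf_one] at hz
    exact hpp.one_lt.ne hz
  have hexp : ∀ q : Q, q ^ p = 1 := by
    intro q
    obtain ⟨a, rfl⟩ := QuotientGroup.mk'_surjective R0 q
    rw [← map_pow, QuotientGroup.mk'_apply, QuotientGroup.eq_one_iff]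
    exact ⟨a, rfl⟩
  have hpcop : ¬ p ∣ Nat.card ↥(U ⊔ E) := fun h => hpp.one_lt.ne' (Nat.eq_one_of_dvd_coprimes hcop
    (hpd.trans ((Subgroup.card_quotient_dvd_card _))) h)
  -- the induced action
  let c : ↥(U ⊔ E) → (H →* H) := fun x =>
    { toFun := fun h => ⟨(x : X) * h * (x : X)⁻¹, hHn x x.2 h h.2⟩
      map_one' := Subtype.ext (by simp)
      map_mul' := fun a b => Subtype.ext (by simp [mul_assoc]) }
  let f : ↥(U ⊔ E) → (Q →* Q) := fun x => QuotientGroup.map R0 R0 (Abelianization.map (c x))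
    (fun a ha => by
      obtain ⟨b, rfl⟩ := ha
      exact ⟨Abelianization.map (c x) b, by simp [powMonoidHom_apply]⟩)
  have hfπ : ∀ (x : ↥(U ⊔ E)) (h : H), f x (π h) = π (c x h) := fun x h => rfl
  obtain ⟨d, M, e, hMe, hcQ⟩ := exists_matrix_rep hexp f
    (fun q => by
      obtain ⟨h, rfl⟩ := hπ q
      rw [hfπ]
      exact congrArg π (Subtype.ext (by simp [c])))
    (fun x y q => by
      obtain ⟨h, rfl⟩ := hπ q
      rw [hfπ, hfπ, hfπ]
      exact congrArg π (Subtype.ext (by simp [c, mul_assoc])))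
  -- the invariant subgroup
  let N : Subgroup X := π.ker.map H.subtype
  have hNH : N ≤ H := Subgroup.map_subtype_le _
  have hmemN : ∀ h : H, (h : X) ∈ N ↔ π h = 1 := fun h => by
    rw [← MonoidHom.mem_ker]
    exact ⟨fun ⟨h', hh', he⟩ => Subtype.ext he ▸ hh', fun hh => ⟨h, hh, rfl⟩⟩
  have hNinv : ∀ x ∈ U ⊔ E, ∀ h ∈ N, x * h * x⁻¹ ∈ N := by
    intro x hx h hh
    have h1 := (hmemN ⟨h, hNH hh⟩).mp hh
    refine (hmemN (c ⟨x, hx⟩ ⟨h, hNH hh⟩)).mpr ?_
    rw [← hfπ, h1, map_one]
  have normalizes : ∀ {A B : Subgroup X}, (∀ x ∈ A, ∀ h ∈ B, x * h * x⁻¹ ∈ B) →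
      A ≤ Subgroup.normalizer (B : Set X) := by
    intro A B hAB a ha
    rw [Subgroup.mem_normalizer_iff]
    refine fun y => ⟨fun hy => hAB a ha y hy, fun hy => ?_⟩
    have := hAB a⁻¹ (inv_mem ha) _ hy
    simpa [mul_assoc] using this
  have hHN : H ≤ Subgroup.normalizer (N : Set X) := normalizes fun x hx h hh => by
    have h1 := (hmemN ⟨h, hNH hh⟩).mp hh
    refine (hmemN (⟨x, hx⟩ * ⟨h, hNH hh⟩ * ⟨x, hx⟩⁻¹)).mpr ?_
    rw [map_mul, map_mul, h1, mul_one, ← map_mul, mul_inv_cancel, map_one]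
  -- counting fixed points
  have hcount : ∀ A : Subgroup X, A ≤ U ⊔ E → Nat.card ↥(H ⊓ Subgroup.centralizer (A : Set X)) =
      Nat.card ↥(N ⊓ Subgroup.centralizer (A : Set X)) *
        p ^ Module.finrank (ZMod p) ↥(fixedSpace M (A.subgroupOf (U ⊔ E))) := by
    intro A hA
    let ψ : ↥(H ⊓ Subgroup.centralizer (A : Set X)) →* Q := π.comp (Subgroup.inclusion inf_le_left)
    have hker : Nat.card ψ.ker = Nat.card ↥(N ⊓ Subgroup.centralizer (A : Set X)) :=
      Nat.card_congr
        { toFun := fun x => ⟨((x : ↥(H ⊓ Subgroup.centralizer (A : Set X))) : X),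
            (hmemN ⟨_, x.1.2.1⟩).mpr x.2, x.1.2.2⟩
          invFun := fun x => ⟨⟨(x : X), hNH x.2.1, x.2.2⟩, (hmemN ⟨(x : X), hNH x.2.1⟩).mp x.2.1⟩
          left_inv := fun x => rfl
          right_inv := fun x => rfl }
    have hfix : ∀ h : H, (e (π h) ∈ fixedSpace M (A.subgroupOf (U ⊔ E))) ↔
        ∀ a (ha : a ∈ A), π (c ⟨a, hA ha⟩ h) = π h := by
      intro h
      constructor
      · intro hv a ha
        have := hv ⟨a, hA ha⟩ ha
        rw [hMe, hfπ] at this
        exact e.injective this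
      · intro hv x hx
        rw [hMe, hfπ, hv (x : X) hx]
    have hrange : Nat.card ψ.range = Nat.card ↥(fixedSpace M (A.subgroupOf (U ⊔ E))) := by
      refine Nat.card_congr (Equiv.subtypeEquiv e fun q => ?_)
      obtain ⟨h, rfl⟩ := hπ q
      refine Iff.trans ?_ (hfix h).symm
      constructor
      · rintro ⟨h', he⟩ a ha
        have he' : π ⟨(h' : X), h'.2.1⟩ = π h := he
        rw [← hfπ, ← he', hfπ]
        refine congrArg π (Subtype.ext ?_)
        show a * (h' : X) * a⁻¹ = (h' : X)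
        rw [(Subgroup.mem_centralizer_iff.mp h'.2.2) a ha]
        group
      · intro hv
        obtain ⟨y, ⟨hyH, hyC⟩, hy⟩ := Cfsg.Agent.S0022.result A H
          (normalizes fun x hx => hHn x (hA hx))
          ((hcop.coprime_dvd_right (Subgroup.card_dvd_of_le hA)).symm) (Or.inr hsolv) N hNH hHN
          (normalizes fun x hx => hNinv x (hA hx)) (h : X) h.2 fun a ha => by
            refine (hmemN (c ⟨a, hA ha⟩ h * h⁻¹)).mpr ?_
            rw [map_mul, hv a ha, map_inv, mul_inv_cancel]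
        refine ⟨⟨y, hyH, hyC⟩, ?_⟩
        have h2 := (hmemN (h⁻¹ * ⟨y, hyH⟩)).mp hy
        rw [map_mul, map_inv, inv_mul_eq_one] at h2
        exact h2.symm
    rw [← Subgroup.card_mul_index ψ.ker, hker, Subgroup.index_ker, hrange,
      Module.natCard_eq_pow_finrank (K := ZMod p) (V := ↥(fixedSpace M (A.subgroupOf (U ⊔ E)))),
      Nat.card_zmod]
  have hcardH : Nat.card H = Nat.card N * p ^ d := by
    rw [← Subgroup.card_mul_index π.ker, Subgroup.index_ker, MonoidHom.range_eq_top.mpr hπ,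
      Nat.card_congr Subgroup.topEquiv.toEquiv, hcQ,
      Subgroup.card_map_of_injective H.subtype_injective]
  have hdpos : d ≠ 0 := by
    rintro rfl
    exact (Finite.one_lt_card (α := Q)).ne' hcQ
  have hNlt : Nat.card N < n := by
    rw [← hn, hcardH]
    exact lt_mul_of_one_lt_right Nat.card_pos (one_lt_pow₀ hpp.one_lt hdpos)
  haveI : Group.IsSolvable ↥N := Group.isSolvable_of_isSolvable_injective (Subgroup.inclusion_injective hNH)
  have hIH := ih _ hNlt N rfl hNinv inferInstance (hcop.coprime_dvd_left (Subgroup.card_dvd_of_le hNH))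
  -- the Frobenius group as an abstract group
  let U' : Subgroup ↥(U ⊔ E) := U.subgroupOf (U ⊔ E)
  let E' : Subgroup ↥(U ⊔ E) := E.subgroupOf (U ⊔ E)
  have cU : Nat.card U' = Nat.card U := Nat.card_congr (Subgroup.subgroupOfEquivOfLe le_sup_left).toEquiv
  have cE : Nat.card E' = Nat.card E := Nat.card_congr (Subgroup.subgroupOfEquivOfLe le_sup_right).toEquiv
  have hUE' : U' ⊓ E' = ⊥ := by
    rw [eq_bot_iff]
    rintro x ⟨h1, h2⟩
    have h3 : (x : X) ∈ U ⊓ E := ⟨h1, h2⟩
    rw [hUE] at h3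
    exact Subtype.ext h3
  have hprod : ∀ x ∈ U ⊔ E, ∃ u ∈ U, ∃ e ∈ E, u * e = x := by
    intro x hx
    have hx' : x ∈ ((U ⊔ E : Subgroup X) : Set X) := hx
    rw [Subgroup.coe_mul_of_right_le_normalizer_left U E (normalizes hUn)] at hx'
    exact hx'
  have hcard' : Nat.card ↥(U ⊔ E) = Nat.card U' * Nat.card E' := by
    rw [cU, cE, ← Nat.card_prod]
    refine (Nat.card_eq_of_bijective (fun x : U × E =>
      (⟨(x.1 : X) * x.2, Subgroup.mul_mem_sup x.1.2 x.2.2⟩ : ↥(U ⊔ E))) ⟨fun a b hab => ?_, fun x => ?_⟩).symm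
    · have h := Subtype.ext_iff.mp hab
      exact Subgroup.mul_injective_of_disjoint (disjoint_iff.mpr hUE) h
    · obtain ⟨u, hu, e, he, h⟩ := hprod x x.2
      exact ⟨(⟨u, hu⟩, ⟨e, he⟩), Subtype.ext h⟩
  letI := Fintype.ofFinite ↥(U ⊔ E)
  have hlin := linear_formula (d := d) U' E' hUE' (fun e he u hu => hUn e he u hu)
    (fun e he he1 u hu h => Subtype.ext (hfpf e he (fun h' => he1 (Subtype.ext h')) u hu (congrArg Subtype.val h)))
    hcard' hpcop M
  rw [cE] at hlin
  rw [hcount _ le_rfl, hcount E le_sup_right, hcount U le_sup_left, Subgroup.subgroupOf_self, hcardH]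
  calc _ = (Nat.card ↥(N ⊓ Subgroup.centralizer ((U ⊔ E : Subgroup X) : Set X)) ^ Nat.card E * Nat.card N) *
      p ^ (Nat.card E * Module.finrank (ZMod p) ↥(fixedSpace M ⊤) + d) := by
        rw [mul_pow, pow_add, pow_mul']
        ring
    _ = _ := by
        rw [hIH, hlin, mul_pow, pow_add, pow_mul' _ (Nat.card E)]
        ring

end Main

end CfsgLib.WielandtFormula
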