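import Cfsg.Agent.Lib.GroupB.Subnormal
import Cfsg.Agent.Lib.Solvable.HallBasic

/-! The zipper lemma for families of subgroups. -/

set_option autoImplicit false
set_option linter.style.haveILetI false

namespace CfsgLib.Solvable.ZipperFamily

open scoped Pointwise

universe u

variable {G : Type u} [Group G] [Finite G]

theorem conj_self {V : Subgroup G} {c : G} (hc : c ∈ V) : MulAut.conj c • V = V :=
  Subgroup.conj_smul_eq_self_of_mem hc

/-- A member of `S V` outside a generated subnormal subgroup normalising it. -/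
theorem exists_next (V : Subgroup G) (SV T : Set (Subgroup G)) (hSV : ∀ B ∈ SV, B ≤ V ∧ (B.subgroupOf V).IsSubnormal)
    (hinv : ∀ B ∈ SV, ∀ c ∈ V, MulAut.conj c • B ∈ SV) (hT : T ⊆ SV) (hne : ∃ B ∈ SV, ¬ B ≤ sSup T) :
    ∃ B ∈ SV, ¬ B ≤ sSup T ∧ B ≤ Subgroup.normalizer ((sSup T : Subgroup G) : Set G) := by
  classical
  set K := sSup T with hK
  have hKV : K ≤ V := sSup_le fun B hB => (hSV B (hT hB)).1
  have hKs : (K.subgroupOf V).IsSubnormal := by
    have hmap : (sSup ((fun B : Subgroup G => B.subgroupOf V) '' T)).map V.subtype = K := by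
      rw [sSup_image, Subgroup.map_iSup, hK, sSup_eq_iSup]
      refine iSup_congr fun B => ?_
      rw [Subgroup.map_iSup]
      refine iSup_congr fun hB => ?_
      exact Subgroup.map_subgroupOf_eq_of_le (hSV B (hT hB)).1
    have : K.subgroupOf V = sSup ((fun B : Subgroup G => B.subgroupOf V) '' T) := by
      apply Subgroup.map_injective V.subtype_injective
      rw [hmap, Subgroup.map_subgroupOf_eq_of_le hKV]
    rw [this]
    refine CfsgLib.GroupB.Subnormal.sSup _ ?_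
    rintro _ ⟨B, hB, rfl⟩
    exact (hSV B (hT hB)).2
  obtain ⟨B, hB⟩ := Set.Finite.exists_maximal
    (s := {B : Subgroup V | K.subgroupOf V ≤ B ∧ B.IsSubnormal ∧ ∀ E ∈ SV, E.subgroupOf V ≤ B → E ≤ K})
    (Set.toFinite _) ⟨K.subgroupOf V, le_rfl, hKs, fun E hE hle x hx => hle (show (⟨x, (hSV E hE).1 hx⟩ : V) ∈ E.subgroupOf V from hx)⟩
  obtain ⟨hKB, hBs, hBE⟩ := hB.prop
  rcases Subgroup.IsSubnormal.iff_eq_top_or_exists.mp hBs with rfl | ⟨C, hBC, hC, hCn⟩
  · obtain ⟨E, hE, hEK⟩ := hne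
    exact absurd (hBE E hE le_top) hEK
  · obtain ⟨E, hE, hEC, hEK⟩ : ∃ E ∈ SV, E.subgroupOf V ≤ C ∧ ¬ E ≤ K := by
      by_contra hcon
      push_neg at hcon
      exact hBC.not_ge (hB.le_of_ge ⟨hKB.trans hBC.le, hC, hcon⟩ hBC.le)
    refine ⟨E, hE, hEK, fun e he => ?_⟩
    have heV : e ∈ V := (hSV E hE).1 he
    have heC : (⟨e, heV⟩ : V) ∈ C := hEC he
    refine Subgroup.mem_normalizer_iff_map_conj_eq.mpr (Subgroup.eq_of_le_of_card_ge ?_
      (Nat.card_congr (K.equivMapOfInjective _ (MulAut.conj e).injective).toEquiv).le)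
    rw [hK, sSup_eq_iSup, Subgroup.map_iSup]
    refine iSup_le fun D => ?_
    rw [Subgroup.map_iSup]
    refine iSup_le fun hD => ?_
    rw [← sSup_eq_iSup, ← hK]
    refine (HallBasic.smul_eq_map e D).ge.trans ?_
    refine hBE _ (hinv D (hT hD) e heV) fun x hx => ?_
    rw [Subgroup.mem_subgroupOf, HallBasic.smul_eq_map] at hx
    obtain ⟨d, hd, hdx⟩ := hx
    have hdV : d ∈ V := (hSV D (hT hD)).1 hd
    have hdB : (⟨d, hdV⟩ : V) ∈ B := hKB (show d ∈ K from le_sSup hD hd)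
    have hx' : x = ⟨e, heV⟩ * ⟨d, hdV⟩ * ⟨e, heV⟩⁻¹ := Subtype.ext hdx.symm
    rw [hx']
    have := hCn.conj_mem ⟨⟨d, hdV⟩, hBC.le hdB⟩ hdB ⟨⟨e, heV⟩, heC⟩
    exact this

theorem exists_greatest (A : Subgroup G) (U : Set (Subgroup G)) (hU : U.Nonempty)
    (S : Subgroup G → Set (Subgroup G))
    (hS : ∀ V B : Subgroup G, B ∈ S V ↔ (∃ g : G, B = MulAut.conj g • A) ∧ B ≤ V ∧ (B.subgroupOf V).IsSubnormal)
    (h2 : ∀ V ∈ U, ∀ W ∈ U, ∀ B ∈ S W, B ≤ V → B ∈ S V)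
    (h3 : ∀ V ∈ U, ∀ W ∈ U, ∃ X ∈ U, Subgroup.normalizer ((sSup (S V ∩ S W) : Subgroup G) : Set G) ≤ X) :
    ∃ M ∈ U, ∀ V ∈ U, V ≤ M := by
  classical
  have hinv : ∀ V B, B ∈ S V → ∀ c ∈ V, MulAut.conj c • B ∈ S V := by
    intro V B hB c hc
    obtain ⟨⟨g, hg⟩, hBV, hBs⟩ := (hS V B).mp hB
    refine (hS V _).mpr ⟨⟨c * g, by rw [hg, map_mul, mul_smul]⟩, ?_, ?_⟩
    · rw [← conj_self hc]; exact Subgroup.pointwise_smul_le_pointwise_smul_iff.mpr hBV
    · have := CfsgLib.GroupB.Subnormal.conj hBs (⟨c, hc⟩ : V)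
      convert this using 1
      ext x
      rw [Subgroup.mem_subgroupOf, HallBasic.smul_eq_map]
      constructor
      · rintro ⟨b, hb, hbx⟩; exact ⟨⟨b, hBV hb⟩, hb, Subtype.ext hbx⟩
      · rintro ⟨b, hb, hbx⟩; exact ⟨b, hb, congrArg Subtype.val hbx⟩
  by_contra hcon
  push_neg at hcon
  obtain ⟨M₀, hM₀⟩ := (Set.toFinite U).exists_maximal hU
  obtain ⟨V₀, hV₀, hV₀M⟩ := hcon M₀ hM₀.prop
  obtain ⟨N₀, hVN, hN₀⟩ := (Set.toFinite U).exists_le_maximal hV₀
  have hne : M₀ ≠ N₀ := fun e => hV₀M (e ▸ hVN)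
  obtain ⟨⟨M, N⟩, ⟨hM, hN, hMN⟩, hmax⟩ := Set.Finite.exists_maximalFor (fun P : Subgroup G × Subgroup G => (S P.1 ∩ S P.2).ncard)
    {P : Subgroup G × Subgroup G | Maximal (· ∈ U) P.1 ∧ Maximal (· ∈ U) P.2 ∧ P.1 ≠ P.2} (Set.toFinite _)
    ⟨(M₀, N₀), hM₀, hN₀, hne⟩
  set T := S M ∩ S N with hT
  obtain ⟨X₀, hX₀, hNX⟩ := h3 M hM.prop N hN.prop
  obtain ⟨X, hXX, hX⟩ := (Set.toFinite U).exists_le_maximal hX₀
  have hNX' : Subgroup.normalizer ((sSup T : Subgroup G) : Set G) ≤ X := hNX.trans hXX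
  have key : ∀ V W : Subgroup G, Maximal (· ∈ U) V → Maximal (· ∈ U) W → S V ∩ S W = T → X = V := by
    intro V W hV hW hTVW
    by_cases hall : ∀ B ∈ S V, B ≤ sSup T
    · refine le_antisymm (hV.le_of_ge hX.prop ?_) ?_ <;>
      · refine le_trans (fun v hv => ?_) hNX'
        refine Subgroup.mem_normalizer_iff_map_conj_eq.mpr (Subgroup.eq_of_le_of_card_ge ?_
          (Nat.card_congr ((sSup T).equivMapOfInjective _ (MulAut.conj v).injective).toEquiv).le)
        rw [sSup_eq_iSup, Subgroup.map_iSup]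
        refine iSup_le fun D => ?_
        rw [Subgroup.map_iSup]
        refine iSup_le fun hD => ?_
        rw [← sSup_eq_iSup]
        refine (HallBasic.smul_eq_map v D).ge.trans ?_
        exact hall _ (hinv V D (hTVW.symm ▸ hD : D ∈ S V ∩ S W).1 v hv)
    · push_neg at hall
      obtain ⟨B, hB, hBT, hBn⟩ := exists_next V (S V) T (fun B hB => ⟨((hS V B).mp hB).2.1, ((hS V B).mp hB).2.2⟩)
        (fun B hB => hinv V B hB) (hTVW ▸ Set.inter_subset_left) hall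
      by_contra hXV
      have hsub : insert B T ⊆ S V ∩ S X := by
        rintro E (rfl | hE)
        · exact ⟨hB, h2 X hX.prop V hV.prop E hB (hBn.trans hNX')⟩
        · have hEV : E ∈ S V := (hTVW.symm ▸ hE : E ∈ S V ∩ S W).1
          exact ⟨hEV, h2 X hX.prop V hV.prop E hEV ((le_sSup hE).trans (Subgroup.le_normalizer.trans hNX'))⟩
      have h4 : T.ncard < (S V ∩ S X).ncard := by
        refine Set.ncard_lt_ncard ⟨(Set.subset_insert B T).trans hsub, fun h => hBT (le_sSup (h (hsub (Set.mem_insert B T))))⟩ (Set.toFinite _)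
      exact absurd (hmax (j := (V, X)) ⟨hV, hX, Ne.symm hXV⟩ h4.le) (not_le.mpr h4)
  have e1 := key M N hM hN rfl
  have e2 := key N M hN hM (Set.inter_comm _ _)
  exact hMN (e1.symm.trans e2)

end CfsgLib.Solvable.ZipperFamily
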